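import Cfsg.Agent.H19.Gr1
import Cfsg.Agent.H7.IBr
import Cfsg.Agent.H7.Second
import Cfsg.Agent.H5.Galois

/-! Green's construction of the cuspidal characters of `GL_n(q)`: orbit sums of generalized characters (`gen_orbits`), the Brauer lift of a
modular representation is a generalized character (`lift`), `gen_P`, inner products (`inner_bb`), `cuspidal`. -/

set_option autoImplicit false
set_option linter.unusedSectionVars false

namespace H19.Gr
open Module Polynomial Finset H5 Cfsg MulAction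
open LinearMap (ker range)
open scoped Classical MonoidAlgebra TensorProduct

theorem gen_orbits {G X : Type*} [Group G] [Finite G] [MulAction G X] [Fintype X] (Φ : G → X → ℂ)
    (h : ∀ k g x, g • x = x → Φ (k * g * k⁻¹) (k • x) = Φ g x) (hs : ∀ x, IsGeneralizedCharacter (stabilizer G x) fun g => Φ g x) :
    IsGeneralizedCharacter G fun g => ∑ x, if g • x = x then Φ g x else 0 := by
  have := Fintype.ofFinite G
  have := Fintype.ofFinite (orbitRel.Quotient G X)
  convert IsGeneralizedCharacter.sum univ fun (w : orbitRel.Quotient G X) _ => (hs w.out).indFun using 2 with g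
  rw [Finset.sum_apply, ← sum_fiberwise univ (Quotient.mk'' : X → orbitRel.Quotient G X)]
  refine sum_congr rfl fun w _ => ?_
  have e (k : G) : extendByZero (stabilizer G w.out) (fun g => Φ g w.out) (k⁻¹ * g * k) =
      if g • k • w.out = k • w.out then Φ g (k • w.out) else 0 := by
    have : k⁻¹ * g * k ∈ stabilizer G w.out ↔ g • k • w.out = k • w.out := by
      rw [mem_stabilizer_iff, mul_smul, mul_smul, inv_smul_eq_iff]
    rw [extendByZero_apply]
    split_ifs with a b b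
    exacts [by simpa [mul_assoc] using (h k _ _ a).symm, (b (this.1 a)).elim, (a (this.2 b)).elim, rfl]
  rw [indFun_apply, sum_congr rfl fun k _ => e k, ← sum_fiberwise_of_maps_to (g := fun k : G => k • w.out)
    (t := {x | (Quotient.mk'' x : orbitRel.Quotient G X) = w}) fun k _ => by
      simpa using (Quotient.sound' (mem_orbit w.out k)).trans w.out_eq', mul_sum]
  refine sum_congr rfl fun x hx => ?_
  rw [sum_congr rfl (g := fun _ => if g • x = x then Φ g x else 0) fun k hk => by rw [(mem_filter.1 hk).2], sum_const, ← Fintype.card_subtype,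
    ← Nat.card_eq_fintype_card, card_smul_eq _ _ (Quotient.exact' ((mem_filter.1 hx).2.trans w.out_eq'.symm)), nsmul_eq_mul,
    inv_mul_cancel_left₀ card_ne_zero_complex]

theorem gen_P.{v} {F V : Type*} [Field F] [AddCommGroup V] [Module F V] [Finite V] {b : F[X] → ℂ} (hb : Ad b) {D : ℕ}
    (h0 : ∀ (G : Type v) [Group G] [Finite G], Nat.card G ∣ D → ∀ (W : Submodule F V) (ρ : G →* End F W),
      IsGeneralizedCharacter G fun g => b (ρ g).charpoly) (Y : Submodule F V) :
    ∀ (G : Type v) [Group G] [Finite G], Nat.card G ∣ D → ∀ ρ : G →* End F V, (∀ g, Inv (ρ g) Y) →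
      IsGeneralizedCharacter G fun g => P b (ρ g) Y := by
  induction Y using WellFoundedLT.induction with | ind Y ih =>
  intro G _ _ hG ρ hY
  let : MulAction G (Submodule F V) :=
    { smul g W := W.map (ρ g)
      one_smul W := show W.map _ = W by rw [map_one]; exact W.map_id
      mul_smul g h W := show W.map _ = (W.map _).map _ by rw [map_mul]; exact W.map_comp _ _ }
  have i (g : G) : Function.Injective (ρ g) := (End.isUnit_iff _).1 ((Group.isUnit g).map ρ) |>.1
  have e (g : G) (W : Submodule F V) : g • W = W ↔ Inv (ρ g) W := ⟨fun h x hx => h.le ⟨x, hx, rfl⟩, fun h =>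
    Submodule.eq_of_le_of_finrank_eq (Submodule.map_le_iff_le_comap.2 h) (Submodule.equivMapOfInjective _ (i g) W).finrank_eq.symm⟩
  convert (h0 G hG Y (Representation.subrepresentation ρ Y hY)).sub (gen_orbits (fun g W => if W < Y then P b (ρ g) W else 0)
    (fun k g W h => if_congr ?_ ?_ rfl) fun W => ?_) using 2 with g
  · rw [P, cp, dif_pos (hY g)]
    simp only [Pi.sub_apply, e, dite_eq_ite, ite_and]
    exact congrArg₂ _ rfl (sum_congr rfl fun W _ => by split_ifs <;> rfl)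
  · conv_lhs => rw [← (e k Y).2 (hY k)]
    exact Submodule.map_lt_map_iff_of_injective (i k)
  · exact (transport hb (ρ k) ((e g W).1 h) (fun x _ => by simp [← End.mul_apply, ← map_mul]) (by simp [LinearMap.ker_eq_bot.2 (i k)])).symm
  split_ifs with h
  exacts [ih W h _ ((Subgroup.card_subgroup_dvd_card _).trans hG) (ρ.comp (Subgroup.subtype _)) fun g => (e _ W).1 g.2, isGen_zero]

/-- complex roots of unity -/
noncomputable def S (N : ℕ) : Finset ℂ := nthRootsFinset N 1

theorem mem_S {N : ℕ} (h : N ≠ 0) {z : ℂ} : z ∈ S N ↔ z ^ N = 1 := mem_nthRootsFinset h.pos 1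

theorem sum_S {N : ℕ} (h : N ≠ 0) (a c : ℕ) : ∑ z ∈ S N, z ^ a * z⁻¹ ^ c = if a ≡ c [MOD N] then (N : ℂ) else 0 := by
  have hζ := Complex.isPrimitiveRoot_exp N h
  generalize Complex.exp _ = ζ at hζ
  have z0 := hζ.ne_zero h
  split_ifs with e
  · refine (sum_congr rfl (g := fun _ => 1) fun z hz => ?_).trans (by simp [S, hζ.card_nthRootsFinset])
    have := (mem_S h).1 hz
    rw [pow_eq_pow_of_modEq e this, ← mul_pow, mul_inv_cancel₀ (by rintro rfl; simp [h] at this)]; simp
  have k : ∑ z ∈ S N, z ^ a * z⁻¹ ^ c = ζ ^ a * ζ⁻¹ ^ c * ∑ z ∈ S N, z ^ a * z⁻¹ ^ c := by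
    rw [mul_sum]
    refine (sum_nbij' (ζ * ·) (ζ⁻¹ * ·) ?_ ?_ ?_ ?_ fun z _ => by ring).symm <;> simp +contextual [mem_S h, mul_pow, hζ.pow_eq_one, z0]
  refine (mul_eq_zero.1 (by linear_combination k)).resolve_left (sub_ne_zero.2 fun l : 1 = ζ ^ a * ζ⁻¹ ^ c => e ?_)
  rw [Nat.modEq_iff_dvd, ← hζ.zpow_eq_one_iff_dvd, zpow_sub₀ z0, zpow_natCast, zpow_natCast, div_eq_one_iff_eq (by simp [z0])]
  rw [inv_pow] at l; field_simp at l; exact l

section idm
variable {K A : Type*} [Field K] [Ring A] [Algebra K A] {N : ℕ} {z : K} {y : A}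

/-- spectral idempotents -/
noncomputable def idm (N : ℕ) (z : K) (y : A) : A := ∑ i ∈ Finset.range N, ((N : K)⁻¹ * z⁻¹ ^ i) • y ^ i

theorem mul_idm (h : (N : K) ≠ 0) (hz : z ^ N = 1) (hy : y ^ N = 1) : y * idm N z y = z • idm N z y := by
  have z0 : z ≠ 0 := by rintro rfl; rw [zero_pow (by rintro rfl; simp at h)] at hz; simp at hz
  have := (sum_range_succ' (fun i => ((N : K)⁻¹ * z⁻¹ ^ i) • y ^ i) N).symm.trans (sum_range_succ _ N)
  rw [inv_pow z N, hz, hy, pow_zero, pow_zero, inv_one, add_left_inj] at this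
  conv_rhs => rw [idm, ← this]
  simp only [idm, mul_sum, smul_sum, mul_smul_comm, smul_smul, pow_succ']
  exact sum_congr rfl fun i _ => by congr 1; field_simp

theorem idm_smul {V : Type*} [AddCommGroup V] [Module K V] [Module A V] [IsScalarTower K A V] [SMulCommClass A K V] (h : (N : K) ≠ 0)
    (hz : z ^ N = 1) {v : V} (hv : y • v = z • v) : idm N z y • v = v := by
  have z0 : z ≠ 0 := by rintro rfl; rw [zero_pow (by rintro rfl; simp at h)] at hz; simp at hz
  have k (i : ℕ) : y ^ i • v = z ^ i • v := by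
    induction i with
    | zero => simp
    | succ i ih => rw [pow_succ', mul_smul, ih, smul_comm, hv, smul_smul, pow_succ]
  simp [idm, sum_smul, k, smul_smul, z0, ← Nat.cast_smul_eq_nsmul K, h]

theorem range_idm {V : Type*} [AddCommGroup V] [Module K V] {y : End K V} (h : (N : K) ≠ 0) (hz : z ^ N = 1) (hy : y ^ N = 1) :
    range (idm N z y) = y.eigenspace z := le_antisymm (by
    rintro _ ⟨v, rfl⟩; exact End.mem_eigenspace_iff.2 congr($(mul_idm h hz hy) v))
  fun v hv => ⟨v, idm_smul (y := y) (v := v) h hz (End.mem_eigenspace_iff.1 hv)⟩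

theorem sum_idm {A : Type*} [Ring A] [Algebra ℂ A] (h : 1 < N) (y : A) : ∑ z ∈ S N, z • idm N z y = y := by
  have k (i) : ∑ z ∈ S N, z * ((N : ℂ)⁻¹ * z⁻¹ ^ i) = if 1 = i then 1 else if 1 ≡ i [MOD N] then 1 else 0 := by
    have := sum_S h.ne_bot 1 i
    simp only [pow_one] at this
    simp only [mul_left_comm _ (N : ℂ)⁻¹, ← mul_sum, this]
    have := h.ne_bot
    split_ifs with a b <;> simp_all [Nat.ModEq]
  simp only [idm, smul_sum, smul_smul]
  rw [sum_comm, sum_eq_single_of_mem 1 (mem_range.2 h) fun i hi hn => ?_] <;> rw [← sum_smul, k]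
  · simp
  · rw [if_neg hn.symm, if_neg fun l => hn (l.eq_of_lt_of_lt h (mem_range.1 hi)).symm, zero_smul]

end idm

section lift
open H7 MonoidAlgebra
variable {M : Ideal AlgInt} {p : ℕ} [hp : Fact p.Prime] [PM p M] {N : ℕ} (hN : ¬ p ∣ N)
include hN

theorem ne0 : N ≠ 0 := by rintro rfl; exact hN (dvd_zero p)

theorem red_inj {z w : ℂ} (hz : z ∈ S N) (hw : w ∈ S N) (h : red M z = red M w) : z = w := by
  rw [mem_S (ne0 hN)] at hz hw
  have w0 : w ≠ 0 := by rintro rfl; simp [ne0 hN] at hw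
  have u : (z * w⁻¹) ^ N = 1 := by simp [mul_pow, hz, hw]
  have r0 : red M w ≠ 0 := fun e => by
    have := red_pow (M := M) (mem_O_of_pow_eq_one (ne0 hN) hw) N
    simp [hw, e, ne0 hN] at this
  by_contra n
  have := congrArg (red M) ((mul_eq_zero.1 ((geom_sum_mul _ N).trans (sub_eq_zero.2 u))).resolve_right
    (sub_ne_zero.2 fun e => n ((mul_inv_eq_one₀ w0).1 e)))
  rw [red_sum _ fun i _ => pow_mem (mem_O_of_pow_eq_one (ne0 hN) u) i, sum_congr rfl fun i _ => red_pow (mem_O_of_pow_eq_one (ne0 hN) u) i,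
    ← div_eq_mul_inv, red_div (mem_O_of_pow_eq_one (ne0 hN) hz) r0, h, div_self r0] at this
  exact hN ((natCast_F_eq_zero_iff (M := M) N).1 (by simpa using this))

theorem mult_eq {G V : Type*} [Group G] [Finite G] [AddCommGroup V] [Module (F M) V] [FiniteDimensional (F M) V] (ρ : G →* End (F M) V)
    {g : G} (hg : pr p g ^ N = 1) {μ : F M} (hμ : μ ^ N = 1) :
    (ρ g).charpoly.rootMultiplicity μ = finrank (F M) (End.eigenspace (ρ (pr p g)) μ) := by
  cases subsingleton_or_nontrivial V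
  · rw [← LinearMap.finrank_maxGenEigenspace_eq, finrank_zero_of_subsingleton, finrank_zero_of_subsingleton]
  obtain ⟨k, hk⟩ := (isPE_pp (p := p) g).exists_pow
  have := charP_of_injective_algebraMap (algebraMap (F M) (End (F M) V)).injective p
  set t := N.totient * (k + finrank (F M) V)
  have l : k + finrank (F M) V ≤ t := Nat.le_mul_of_pos_left _ (Nat.totient_pos.2 (ne0 hN).pos)
  have e : p ^ t ≡ 1 [MOD N] := by
    simpa [t, pow_mul] using (Nat.ModEq.pow_totient ((Nat.Prime.coprime_iff_not_dvd hp.out).2 hN)).pow (k + finrank (F M) V)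
  rw [← LinearMap.finrank_maxGenEigenspace_eq, End.maxGenEigenspace_eq_genEigenspace_finrank,
    ← End.genEigenspace_eq_genEigenspace_finrank_of_le _ _ (k := p ^ t) (((Nat.le_add_left _ k).trans l).trans (Nat.lt_pow_self hp.out.one_lt).le),
    End.genEigenspace_nat, sub_pow_char_pow_of_commute _ _ ((Commute.one_right _).smul_right μ), _root_.smul_pow, one_pow, ← map_pow,
    pow_eq_pow_of_modEq e hμ, pow_one, End.eigenspace_def, ← congrArg (· ^ _) (pp_mul_pr (p := p) g), (commute_pp_pr g).mul_pow,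
    pow_eq_pow_of_modEq e hg, ← Nat.add_sub_cancel' ((Nat.le_add_right k _).trans l), pow_add, pow_mul, hk, one_pow, one_mul, pow_one]

theorem lift (h1 : 1 < N) {G V : Type*} [Group G] [Finite G] (hG : ∀ g : G, pr p g ^ N = 1) [AddCommGroup V] [Module (F M) V]
    [FiniteDimensional (F M) V] (ρ : Representation (F M) G V) :
    IsGeneralizedCharacter G fun g => ∑ z ∈ S N, z * ((ρ g).charpoly.rootMultiplicity (red M z) : ℕ) := by
  have hr : RkF fun a : OG M G => finrank (F M) (range (ρ.asAlgebraHom (redA M a.1))) :=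
    (rkF_range (F M) V).comp (ρ.asAlgebraHom.toRingHom.comp (redH M G))
  convert IsGeneralizedCharacter.sum univ fun (i : IBr M G) _ =>
    (isGen_bch_pr (p := p) i).natCast_smul (finrank (F M) (range (ρ.asAlgebraHom (redA M (pidem i).1)))) using 2 with g
  have hy := hG g
  have h0 : (N : ℂ) ≠ 0 := Nat.cast_ne_zero.2 (ne0 hN)
  have hy' : single (pr p g) (1 : ℂ) ^ N = 1 := by rw [single_pow, hy, one_pow, one_def]
  have a (z) (hz : z ∈ S N) : ∃ hO : idm N z (single (pr p g) 1) ∈ OG M G, IsIdempotentElem (idm N z (single (pr p g) (1 : ℂ))) ∧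
      finrank (F M) (range (ρ.asAlgebraHom (redA M (idm N z (single (pr p g) 1))))) = (ρ g).charpoly.rootMultiplicity (red M z) := by
    rw [mem_S (ne0 hN)] at hz
    have zO := mem_O_of_pow_eq_one (M := M) (ne0 hN) hz
    have zO' (i) := pow_mem (mem_O_of_pow_eq_one (M := M) (z := z⁻¹) (ne0 hN) (by simp [hz])) i
    have cO (i) := mul_mem (natCast_inv_mem_O (M := M) hN) (zO' i)
    have sO := single_mem_OG (M := M) (pr p g) (one_mem _)
    have r1 : red M z ^ N = 1 := by rw [← red_pow zO, hz, red_one]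
    have r0 : red M z ≠ 0 := fun e => by simp [e, ne0 hN] at r1
    refine ⟨sum_mem fun i _ => smul_mem_OG (cO i) (pow_mem sO i), idm_smul (y := single (pr p g) (1 : ℂ)) (V := ℂ[G]) h0 hz (mul_idm h0 hz hy'), ?_⟩
    rw [mult_eq hN ρ hy r1, ← range_idm (mt (natCast_F_eq_zero_iff N).1 hN) r1 (by rw [← map_pow, hy, map_one]), idm, idm,
      redA_sum _ fun i _ => smul_mem_OG (cO i) (pow_mem sO i), map_sum, sum_congr rfl fun i _ => by
        rw [redA_smul (cO i) (pow_mem sO i), redA_pow sO, redA_single, map_smul, map_pow, Representation.asAlgebraHom_single_one,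
          red_mul (natCast_inv_mem_O hN) (zO' i), red_natCast_inv hN, red_pow (by simpa using zO' 1), red_inv r0]]
  have d (i : IBr M G) : bch p i (pr p g) = ∑ z ∈ S N, z * (brep i (redA M (idm N z (single (pr p g) 1)))).rank := by
    rw [bch_of_not_dvd i (not_dvd_orderOf_pr g), ← one_mul (bth i _), ← ev_single, ← sum_idm h1 (single _ _), map_sum, sum_idm h1]
    exact sum_congr rfl fun z hz => by rw [map_smul, ev_bth_idem i (a z hz).2.1 (a z hz).1, smul_eq_mul]
  simp only [Finset.sum_apply, Pi.smul_apply, smul_eq_mul, d, mul_sum]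
  rw [sum_comm]
  refine sum_congr rfl fun z hz => ?_
  obtain ⟨h2, h3, h4⟩ := a z hz
  rw [← h4, hr.eq_sum (idem_mk h3 h2), Nat.cast_sum, mul_sum]
  exact sum_congr rfl fun i _ => by rw [smul_eq_mul, Nat.cast_mul]; ring

end lift

section mu
variable {F k : Type*} [Field F] [Finite F] [Field k] [Algebra F k] {α : k}

/-- multiplicity of `α` as a root -/
noncomputable def mu (α : k) (f : F[X]) : ℕ := (f.map (algebraMap F k)).rootMultiplicity α

theorem mu_mul {f h : F[X]} (hf : f ≠ 0) (hh : h ≠ 0) : mu α (f * h) = mu α f + mu α h := by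
  rw [mu, Polynomial.map_mul, rootMultiplicity_mul (mul_ne_zero (map_ne_zero hf) (map_ne_zero hh))]; rfl

theorem ad_mu : Ad fun f : F[X] => (mu α f : ℂ) := fun f h hf hh => by simp [mu_mul hf.ne_zero hh.ne_zero]

theorem mu_pow {f : F[X]} (hf : f ≠ 0) (n : ℕ) : mu α (f ^ n) = n * mu α f := by
  induction n with
  | zero => simp [mu, rootMultiplicity_eq_zero]
  | succ n ih => rw [pow_succ, mu_mul (pow_ne_zero _ hf) hf, ih]; ring

theorem dvd_iff_mu (h : IsIntegral F α) (f : F[X]) (hf : f.Monic) (i : ℕ) : minpoly F α ^ (i + 1) ∣ f ↔ i < mu α f := by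
  have r := minpoly.irreducible h
  obtain ⟨n, a, ha, rfl⟩ := WfDvdMonoid.max_power_factor hf.ne_zero r
  have h1 : mu α (minpoly F α) = 1 := le_antisymm (rootMultiplicity_le_one_of_separable (PerfectField.separable_of_irreducible r).map _)
    ((rootMultiplicity_pos (map_ne_zero r.ne_zero)).2 (by simp))
  have h2 : mu α a = 0 := rootMultiplicity_eq_zero fun e => ha (minpoly.dvd F α (by rwa [← eval_map_algebraMap]))
  rw [mu_mul (pow_ne_zero _ r.ne_zero) (right_ne_zero_of_mul hf.ne_zero), mu_pow r.ne_zero, h1, h2, mul_one, add_zero]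
  refine ⟨fun e => not_le.1 fun l => ha ?_, fun e => (pow_dvd_pow _ e).mul_right _⟩
  exact (mul_dvd_mul_iff_left (pow_ne_zero n r.ne_zero)).1 (pow_succ (minpoly F α) n ▸ (pow_dvd_pow _ (by omega)).trans e)

theorem deg_dvd (h : IsIntegral F α) (n : ℕ) : (minpoly F α).natDegree ∣ n ↔ α ^ Nat.card F ^ n = α := by
  rw [(minpoly.irreducible h).natDegree_dvd_iff_dvd_X_pow_card_pow_sub_X, minpoly.dvd_iff]; simp [sub_eq_zero]

theorem map_minpoly (h : IsIntegral F α) (t : ℕ) : (minpoly F α ^ t).map (algebraMap F k) =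
    ∏ i ∈ Finset.range ((minpoly F α).natDegree * t), (X - C (α ^ Nat.card F ^ i)) := by
  have := Fintype.ofFinite F
  have fr (i : ℕ) (x : k) : (FiniteField.frobeniusAlgHom F k ^ i) x = x ^ Nat.card F ^ i := by
    rw [AlgHom.coe_pow, FiniteField.coe_frobeniusAlgHom, pow_iterate, Nat.card_eq_fintype_card]
  have e : (minpoly F α).map (algebraMap F k) = ∏ i ∈ Finset.range (minpoly F α).natDegree, (X - C (α ^ Nat.card F ^ i)) := by
    refine eq_of_monic_of_dvd_of_natDegree_le (monic_prod_X_sub_C _ _) ((minpoly.monic h).map _) (prod_dvd_of_coprime ?_ fun i _ => ?_)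
      (by rw [natDegree_map, natDegree_finsetProd_X_sub_C_eq_card, card_range])
    · intro i hi j hj l
      wlog l : i < j generalizing i j
      · exact (this hj hi (Ne.symm ‹_›) (by omega)).symm
      refine isCoprime_X_sub_C_of_isUnit_sub (sub_ne_zero.2 fun e => ?_).isUnit
      refine Nat.not_dvd_of_pos_of_lt (Nat.sub_pos_of_lt l) ((Nat.sub_le j i).trans_lt (by simpa using hj)) ((deg_dvd h _).2 ?_)
      refine (FiniteField.frobeniusAlgHom F k ^ i).injective ((fr _ _).trans (.trans ?_ (fr _ _).symm))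
      rw [← pow_mul, ← pow_add, Nat.sub_add_cancel l.le, e]
    · rw [dvd_iff_isRoot, IsRoot, eval_map_algebraMap, ← fr, aeval_algHom_apply, minpoly.aeval, map_zero]
  induction t with
  | zero => simp
  | succ t ih =>
    rw [pow_succ, Polynomial.map_mul, ih, e, Nat.mul_succ, prod_range_add]
    simp only [pow_add, pow_mul α, (deg_dvd h _).1 (dvd_mul_right _ t)]

theorem mu_minpoly (h : IsIntegral F α) {n : ℕ} (hn : (minpoly F α).natDegree ∣ n) (γ : k) :
    (mu γ (minpoly F α ^ (n / (minpoly F α).natDegree)) : ℂ) = ∑ i ∈ Finset.range n, if γ = α ^ Nat.card F ^ i then 1 else 0 := by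
  rw [mu, map_minpoly h, Nat.mul_div_cancel' hn]
  clear hn
  induction n with
  | zero => simp [rootMultiplicity_eq_zero]
  | succ n ih =>
    rw [prod_range_succ, rootMultiplicity_mul ((monic_prod_X_sub_C _ _).mul (monic_X_sub_C _)).ne_zero, sum_range_succ, ← ih,
      rootMultiplicity_X_sub_C]
    simp

end mu

section main
open H7
variable {M : Ideal AlgInt} {p : ℕ} [hp : Fact p.Prime] [PM p M] {N : ℕ} (hN : ¬ p ∣ N) {K : Type*} [Field K] [Finite K] [Algebra K (F M)]

variable (M N) in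
/-- the Brauer lift, twisted -/
noncomputable def bb (j : ℕ) (f : K[X]) : ℂ := ∑ z ∈ S N, z ^ j * mu (red M z) f

theorem ad_bb (j : ℕ) : Ad (bb (K := K) M N j) := fun f h hf hh => by
  simp [bb, mu_mul hf.ne_zero hh.ne_zero, mul_add, sum_add_distrib]

include hN

theorem gen_bb (h1 : 1 < N) {j : ℕ} (hj : j.Coprime N) {G V : Type*} [Group G] [Finite G] (hG : ∀ g : G, pr p g ^ N = 1) [AddCommGroup V]
    [Module K V] [Finite V] (ρ : G →* End K V) : IsGeneralizedCharacter G fun g => bb M N j (ρ g).charpoly := by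
  obtain ⟨σ, hσ⟩ := exists_ringEquiv_pow h1.le hj
  obtain ⟨χ, ψ, a, b, e⟩ := lift hN h1 hG ((End.baseChangeHom K (F M) V).toMonoidHom.comp ρ)
  refine ⟨_, _, a.map_ringHom σ, b.map_ringHom σ, funext fun g => ?_⟩
  rw [Pi.sub_apply, ← map_sub, ← Pi.sub_apply χ, ← e, map_sum]
  exact sum_congr rfl fun z hz => by
    rw [map_mul, map_natCast, RingHom.coe_coe, hσ z ((mem_S (ne0 hN)).1 hz), mu, ← LinearMap.charpoly_baseChange]; rfl

theorem inner_bb {V : Type*} [AddCommGroup V] [Module K V] [Finite V] [Nontrivial V] (h : Nat.card K ^ finrank K V - 1 ∣ N) (j j' : ℕ) :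
    ∑ g : End K V, P (bb M N j) g ⊤ * ((if g.charpoly.coeff 0 = 0 then 0 else 1) * (starRingEnd ℂ) (P (bb M N j') g ⊤)) =
      Nat.card (V ≃ₗ[K] V) * #{i ∈ Finset.range (finrank K V) | j ≡ Nat.card K ^ i * j' [MOD Nat.card K ^ finrank K V - 1]} := by
  set n := finrank K V
  set q := Nat.card K
  have q1 : 1 < q ^ n := Nat.one_lt_pow finrank_pos.ne' Finite.one_lt_card
  have c : (Nat.card V - 1 : ℂ) = (q ^ n - 1 : ℕ) := by rw [Nat.cast_sub q1.le, natCard_eq_pow_finrank (K := K)]; simp [q, n]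
  have m0 : q ^ n - 1 ≠ 0 := by omega
  refine mul_left_cancel₀ (c ▸ Nat.cast_ne_zero.2 m0) ?_
  rw [norm_eq (ad_bb j) (ad_bb j') fun f => if f.coeff 0 = 0 then 0 else 1]
  have a (z) (hz : z ∈ S N) : (Nat.card V - 1 : ℂ) * ∑ g : End K V, P (fun f => (mu (red M z) f : ℂ)) g ⊤ *
      ((if g.charpoly.coeff 0 = 0 then 0 else 1) * (starRingEnd ℂ) (bb M N j' g.charpoly)) =
      if z ∈ S (q ^ n - 1) then Nat.card (V ≃ₗ[K] V) * ∑ i ∈ Finset.range n, z⁻¹ ^ (q ^ i * j') else 0 := by
    have hz' := (mem_S (ne0 hN)).1 hz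
    have zO := mem_O_of_pow_eq_one (M := M) (ne0 hN) hz'
    have r1 : red M z ^ N = 1 := by rw [← red_pow zO, hz', red_one]
    have i : IsIntegral K (red M z) := .of_pow (ne0 hN).pos (r1 ▸ isIntegral_one)
    have z0 : z ≠ 0 := by rintro rfl; simp [ne0 hN] at hz'
    have pw (i) : z ^ i ∈ S N := (mem_S (ne0 hN)).2 (by rw [← pow_mul, mul_comm, pow_mul, hz', one_pow])
    rw [sum_prim (minpoly.monic i) (minpoly.ne_one K _) (dvd_iff_mu i) ad_mu
      fun f => (if f.coeff 0 = 0 then 0 else 1) * (starRingEnd ℂ) (bb M N j' f)]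
    refine if_ctx_congr ?_ (fun l => ?_) fun _ => rfl
    · rw [deg_dvd i, mem_S m0, ← red_pow zO, ← mul_left_inj' z0, ← pow_succ, Nat.sub_add_cancel q1.le, one_mul]
      exact ⟨red_inj hN (pw _) hz, congrArg _⟩
    have l' : (minpoly K (red M z)).natDegree ∣ n := by
      rw [deg_dvd i, ← red_pow zO, ← Nat.sub_add_cancel q1.le, pow_succ, (mem_S m0).1 l, one_mul]
    rw [if_neg (by
      rw [← constantCoeff_apply, map_pow]
      exact pow_ne_zero _ (minpoly.coeff_zero_ne_zero i fun e => by simp [e, ne0 hN] at r1)), one_mul, bb]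
    simp only [mu_minpoly (n := finrank K V) i l', mul_sum, ← red_pow zO]
    rw [sum_comm, map_sum, mul_sum]
    refine sum_congr rfl fun t _ => ?_
    rw [sum_eq_single_of_mem _ (pw (q ^ t)) fun w hw hn => by rw [if_neg fun e => hn (red_inj hN hw (pw _) e), mul_zero], if_pos rfl, mul_one,
      ← pow_mul, map_pow, Complex.inv_eq_conj (Complex.norm_eq_one_of_pow_eq_one hz' (ne0 hN))]
  simp only [show bb (K := K) M N j = fun f => ∑ z ∈ S N, z ^ j * mu (red M z) f from rfl, P_sum _ _ _ (fun _ _ => Submodule.mem_top : Inv _ ⊤),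
    sum_mul, mul_assoc]
  rw [sum_comm, mul_sum, sum_congr rfl fun z hz => by rw [← mul_sum, mul_left_comm, a z hz, mul_ite, mul_zero], ← sum_filter,
    filter_mem_eq_inter, inter_eq_right.2 fun z hz => (mem_S (ne0 hN)).2 (by
      obtain ⟨t, e⟩ := h; rw [e, pow_mul, (mem_S m0).1 hz, one_pow]), c]
  rw [sum_congr rfl fun z _ => mul_left_comm _ _ _, ← mul_sum, mul_left_comm]
  congr 1
  simp only [mul_sum]
  rw [sum_comm]
  simp only [sum_S m0, ← sum_filter, sum_const, nsmul_eq_mul]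
  exact mul_comm _ _

end main

variable {F : Type*} [Field F] [Fintype F] [DecidableEq F] {n : ℕ}

/-- the natural representation -/
noncomputable def nat : GL (Fin n) F →* End F (Fin n → F) := (Units.coeHom _).comp Matrix.GeneralLinearGroup.toLin.toMonoidHom

theorem sum_GL (φ : End F (Fin n → F) → ℂ) : ∑ g : GL (Fin n) F, φ (nat g) = ∑ g, (if g.charpoly.coeff 0 = 0 then 0 else 1) * φ g := by
  rw [sum_congr rfl (g := fun g : End F (Fin n → F) => if g.charpoly.coeff 0 ≠ 0 then φ g else 0) fun g _ => by simp, ← sum_filter]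
  refine sum_bij (fun g _ => nat g) (fun g _ => mem_filter.2 ⟨mem_univ _, H11.isUnit_iff_charpoly.1 ((Group.isUnit g).map nat)⟩)
    (fun _ _ _ _ e => Matrix.GeneralLinearGroup.toLin.injective (Units.ext e)) (fun g hg => ?_) fun _ _ => rfl
  obtain ⟨u, rfl⟩ := H11.isUnit_iff_charpoly.2 (mem_filter.1 hg).2
  exact ⟨Matrix.GeneralLinearGroup.toLin.symm u, mem_univ _, by simp [nat]⟩

theorem cusp {b : F[X] → ℂ} (hb : Ad b) (c : ℂ) {m : ℕ} (h0 : 0 < m) (h1 : m < n) :
    (∑ g : GL (Fin n) F, if ∀ i j : Fin n, ¬ (i.val < m ∧ m ≤ j.val) → (g : Matrix (Fin n) (Fin n) F) i j = (1 : Matrix (Fin n) (Fin n) F) i j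
      then c * P b (nat g) ⊤ else 0) = 0 := by
  let K : Submodule F (Fin n → F) := .pi {i | m ≤ i.val} fun _ => ⊥
  have hK {v} : v ∈ K ↔ ∀ i : Fin n, m ≤ i → v i = 0 := Submodule.mem_pi
  have a (g : GL (Fin n) F) (v i) : (nat g - 1) v i = ∑ j, (g.1 i j - (1 : Matrix _ _ F) i j) * v j := by
    simp [sub_mul, Matrix.one_apply, nat, Matrix.mulVec, dotProduct]
  have e := prim hb (g := 1) (K := K) (Y := ⊤) (fun _ h => h) (fun _ h => h) (sup_top_eq _) (fun e => by
    simpa using congrFun ((Submodule.mem_bot F).1 (e.le (show Pi.single ⟨0, h0.trans h1⟩ (1 : F) ∈ _ from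
      ⟨hK.2 fun i hi => Pi.single_eq_of_ne (by rintro rfl; simp at hi; omega) _, trivial⟩))) ⟨0, h0.trans h1⟩)
    fun e => by simpa using hK.1 (e.ge (Submodule.mem_top (x := Pi.single ⟨m, h1⟩ (1 : F)))) ⟨m, h1⟩ le_rfl
  have k (g : GL (Fin n) F) : (∀ i j : Fin n, ¬ (i.val < m ∧ m ≤ j.val) → g.1 i j = (1 : Matrix (Fin n) (Fin n) F) i j) ↔ nat g - 1 ∈ N K ⊤ := by
    refine ⟨fun h => ⟨fun v => ⟨hK.2 fun i hi => ?_, trivial⟩, fun v hv => funext fun i => ?_⟩, fun h i j l => ?_⟩
    · rw [a]; exact sum_eq_zero fun j _ => by rw [h i j (by omega), sub_self, zero_mul]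
    · rw [a]; exact sum_eq_zero fun j _ => by
        by_cases l : m ≤ j
        · rw [hK.1 hv j l, mul_zero]
        · rw [h i j (by omega), sub_self, zero_mul]
    have : (nat g - 1) (Pi.single j 1) i = 0 := by
      by_cases k : m ≤ i
      · exact hK.1 (h.1 _).1 i k
      · exact congrFun (h.2 _ (hK.2 fun t ht => Pi.single_eq_of_ne (by rintro rfl; omega) _)) i
    rw [a] at this
    simpa [Pi.single_apply, sub_eq_zero] using this
  refine (sum_congr rfl fun g _ => if_congr (k g) rfl rfl).trans ((sum_GL fun g => if g - 1 ∈ N K ⊤ then c * P b g ⊤ else 0).trans ?_)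
  rw [← Equiv.sum_comp (Equiv.addLeft (1 : End F (Fin n → F)))]
  refine .trans ?_ ((congrArg (c * ·) e).trans (mul_zero c))
  rw [mul_sum, ← sum_subtype {X | X ∈ N K ⊤} (by simp) fun X => c * P b (1 + X) ⊤, sum_filter]
  refine sum_congr rfl fun X _ => ?_
  by_cases h : X ∈ N K ⊤
  · simp [h, chi_add (g := 1) (fun _ h => h) ⟨X, h⟩, LinearMap.charpoly_one, coeff_zero_eq_eval_zero]
  · simp [h]

theorem cuspidal (hn : 2 ≤ n) : ∃ χ : ℕ → GL (Fin n) F → ℂ, ∀ a, (Fintype.card F ^ n - 1).Coprime a → IsIrrCharacter _ (χ a) ∧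
    χ a 1 = ∏ i ∈ Ico 1 n, ((Fintype.card F : ℂ) ^ i - 1) ∧ (∃ b c, Ad b ∧ χ a = fun g => c * P b (nat g) ⊤) ∧
    ∀ a', (Fintype.card F ^ n - 1).Coprime a' → χ a = χ a' → ∃ i < n, a ≡ Fintype.card F ^ i * a' [MOD Fintype.card F ^ n - 1] := by
  obtain ⟨p, hp⟩ := CharP.exists F
  obtain ⟨r, pp, hr⟩ := FiniteField.card F p
  have := Fact.mk pp
  obtain ⟨M, hM⟩ := H7.exists_isPModular p
  have : H7.PM p M := ⟨hM⟩
  let := ZMod.algebra F p
  let := ZMod.algebra (H7.F M) p
  have := H7.isAlgClosed_F M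
  let : Algebra F (H7.F M) := (IsAlgClosed.lift (R := ZMod p) (S := F) (M := H7.F M)).toRingHom.toAlgebra
  rw [← Nat.card_eq_fintype_card] at hr ⊢
  set q := Nat.card F
  have q2 : 2 ≤ q := Finite.one_lt_card
  have q4 : 2 ^ 2 ≤ q ^ n := (Nat.pow_le_pow_left q2 2).trans (Nat.pow_le_pow_right (by omega) hn)
  obtain ⟨N, hN, h1, h2, h3⟩ : ∃ N, ¬ p ∣ N ∧ 1 < N ∧ q ^ n - 1 ∣ N ∧ ordCompl[p] (Nat.card (GL (Fin n) F)) ∣ N := by
    refine ⟨_, pp.not_dvd_mul (Nat.not_dvd_ordCompl pp Nat.card_pos.ne') fun h => pp.one_lt.ne' (Nat.dvd_one.1 ?_), ?_, dvd_mul_left _ _,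
      dvd_mul_right _ _⟩
    · exact (Nat.dvd_sub_iff_right (by omega) (dvd_pow (hr ▸ dvd_pow_self p r.ne_zero) (by omega))).1 h
    · exact lt_of_lt_of_le (by omega) (Nat.le_mul_of_pos_left _ (Nat.ordCompl_pos p Nat.card_pos.ne'))
  have ex (a) : ∃ j, (q ^ n - 1).Coprime a → j.Coprime N ∧ j ≡ a [MOD q ^ n - 1] := by
    by_cases h : (q ^ n - 1).Coprime a
    · obtain ⟨j, a, b, c⟩ := Nat.forall_exists_prime_gt_and_modEq N (by omega) h.symm
      exact ⟨j, fun _ => ⟨(Nat.coprime_of_lt_prime (by omega) a b), c⟩⟩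
    · exact ⟨0, fun l => (h l).elim⟩
  choose j hj using ex
  have : Nonempty (Fin n) := ⟨⟨0, by omega⟩⟩
  have ip (a a') : classInner (fun g : GL (Fin n) F => (-1) ^ (n - 1) * P (bb M N a) (nat g) ⊤) (fun g => (-1) ^ (n - 1) * P (bb M N a') (nat g) ⊤)
      = #{i ∈ Finset.range n | a ≡ q ^ i * a' [MOD q ^ n - 1]} := by
    have := inner_bb (M := M) hN (K := F) (V := Fin n → F) (by rwa [finrank_fin_fun]) a a'
    rw [← Nat.card_congr (Matrix.GeneralLinearGroup.toLin.trans (LinearMap.GeneralLinearGroup.generalLinearEquiv F _)).toEquiv, finrank_fin_fun] at this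
    rw [classInner, sum_GL fun g : End F (Fin n → F) => (-1) ^ (n - 1) * P (bb M N a) g ⊤ * (starRingEnd ℂ) ((-1) ^ (n - 1) * P (bb M N a') g ⊤),
      inv_mul_eq_iff_eq_mul₀ card_ne_zero_complex, ← this]
    exact sum_congr rfl fun g _ => by rcases neg_one_pow_eq_or ℂ (n - 1) with e | e <;> simp [e]
  refine ⟨fun a g => (-1) ^ (n - 1) * P (bb M N (j a)) (nat g) ⊤, fun a ha => ?_⟩
  have d : (-1) ^ (n - 1) * P (bb M N (j a)) (nat (1 : GL (Fin n) F)) ⊤ = ∏ i ∈ Ico 1 n, ((q : ℂ) ^ i - 1) := by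
    have : bb M N (j a) (X - 1 : F[X]) = 1 := by
      rw [bb, sum_eq_single_of_mem 1 ((mem_S (ne0 hN)).2 (one_pow _)) fun z hz e => ?_] <;>
        rw [mu, ← C_1, Polynomial.map_sub, map_X, map_C, map_one, rootMultiplicity_X_sub_C]
      · simp
      · rw [if_neg fun l => e (red_inj hN hz ((mem_S (ne0 hN)).2 (one_pow _)) (l.trans H7.red_one.symm)), Nat.cast_zero, mul_zero]
    rw [map_one, P_one (ad_bb _) (n - 1) _ (by simp; omega), this, one_mul, Nat.sub_add_cancel (by omega), ← Nat.card_Ico 1 n, ← prod_const,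
      ← prod_mul_distrib]
    simp [q]
  have i : IsIrrCharacter _ fun g : GL (Fin n) F => (-1) ^ (n - 1) * P (bb M N (j a)) (nat g) ⊤ := by
    refine IsGeneralizedCharacter.isIrr_of_classInner_self_of_apply_one ?_ ?_ ?_
    · have := gen_P (ad_bb (M := M) (N := N) (j a)) (D := Nat.card (GL (Fin n) F)) (fun G _ _ hG W ρ => gen_bb hN h1 (hj a ha).1 (fun g =>
        orderOf_dvd_iff_pow_eq_one.1 ((Nat.Coprime.dvd_of_dvd_mul_left (((Nat.Prime.coprime_iff_not_dvd pp).2 (H7.not_dvd_orderOf_pr g)).symm.pow_right _)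
          ((orderOf_dvd_natCard _).trans (hG.trans (Nat.ordProj_mul_ordCompl_eq_self _ p).symm.dvd))).trans h3)) ρ) ⊤ _ dvd_rfl nat fun _ _ _ => trivial
      convert this.intCast_smul ((-1) ^ (n - 1)) using 2
      simp
    · rw [ip, Nat.cast_eq_one, card_eq_one]
      refine ⟨0, eq_singleton_iff_unique_mem.2 ⟨mem_filter.2 ⟨mem_range.2 (by omega), by simp [Nat.ModEq]⟩, fun i hi => by_contra fun i0 => ?_⟩⟩
      have := ((Nat.modEq_iff_dvd' (Nat.one_le_pow i q (by omega))).1 (Nat.ModEq.cancel_right_of_coprime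
        ((hj a ha).1.symm.coprime_dvd_left h2) ((one_mul (j a)).symm ▸ (mem_filter.1 hi).2)))
      have := Nat.le_of_dvd (Nat.sub_pos_of_lt (Nat.one_lt_pow i0 q2)) this
      have := Nat.pow_lt_pow_right q2 (mem_range.1 (mem_filter.1 hi).1)
      omega
    · rw [d, show ∏ i ∈ Ico 1 n, ((q : ℂ) ^ i - 1) = (∏ i ∈ Ico 1 n, (q ^ i - 1) : ℕ) by
        rw [Nat.cast_prod]; exact prod_congr rfl fun i _ => by rw [Nat.cast_sub (Nat.one_le_pow i q (by omega))]; simp]
      exact Nat.cast_nonneg (α := ℝ) _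
  refine ⟨i, d, ⟨_, _, ad_bb _, rfl⟩, fun a' ha' e => ?_⟩
  have := i.classInner_self
  nth_rw 2 [show (fun g => _) = _ from e] at this
  rw [ip] at this
  obtain ⟨t, ht⟩ := card_pos.1 (Nat.cast_eq_one.1 this).ge
  exact ⟨t, mem_range.1 (mem_filter.1 ht).1, (hj a ha).2.symm.trans ((mem_filter.1 ht).2.trans ((hj a' ha').2.mul_left _))⟩

end H19.Gr
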