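import Cfsg.Agent.H11.Syl2
import Cfsg.Agent.H10.SL

/-! Homocyclic Sylow subgroups of `GL_n`, `SL_n`, `Sp_{2n}` for primes `r > n` (`gl_syl`, `sl_syl`, `sp_syl`); valuations `val_cyc`, `val_pow`,
`val_GL`; block Singer embeddings `exists_gl`. -/

set_option autoImplicit false

namespace H19.Hc
open Module Matrix H11 H11.PForm Subgroup Polynomial
open scoped MatrixGroups

variable {q r : ℕ}

theorem dvd_iff (hq : 1 ≤ q) {e : ℕ} : r ∣ q ^ e - 1 ↔ orderOf (q : ZMod r) ∣ e := by
  rw [orderOf_dvd_iff_pow_eq_one, ← ZMod.natCast_eq_zero_iff, Nat.cast_sub (Nat.one_le_pow _ _ hq), sub_eq_zero]; simp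

theorem dvd_iff' {e : ℕ} : (r : ℤ) ∣ (q : ℤ) ^ e - 1 ↔ orderOf (q : ZMod r) ∣ e := by
  rw [orderOf_dvd_iff_pow_eq_one, ← ZMod.intCast_zmod_eq_zero_iff_dvd]; simp [sub_eq_zero]

variable [hr : Fact r.Prime]

theorem ord_dvd (h : ¬ r ∣ q) : orderOf (q : ZMod r) ∣ r - 1 :=
  orderOf_dvd_of_pow_eq_one (ZMod.pow_card_sub_one_eq_one (mt (ZMod.natCast_eq_zero_iff _ _).1 h))

theorem ord_pos (h : ¬ r ∣ q) : 0 < orderOf (q : ZMod r) := Nat.pos_of_dvd_of_pos (ord_dvd h) (Nat.sub_pos_of_lt hr.out.one_lt)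

theorem ord_lt (h : ¬ r ∣ q) : orderOf (q : ZMod r) < r :=
  (Nat.le_of_dvd (Nat.sub_pos_of_lt hr.out.one_lt) (ord_dvd h)).trans_lt (Nat.sub_one_lt hr.out.ne_zero)

theorem val_cyc (hq : 2 ≤ q) (h : ¬ r ∣ q) : padicValNat r ((cyclotomic (orderOf (q : ZMod r)) ℤ).eval (q : ℤ)).natAbs =
    padicValNat r (q ^ orderOf (q : ZMod r) - 1) := by
  have h0 := ord_pos h
  have h1 : 1 < q ^ orderOf (q : ZMod r) := Nat.one_lt_pow h0.ne' hq
  have e := congrArg (fun f => (eval (q : ℤ) f).natAbs) (prod_cyclotomic_eq_X_pow_sub_one h0 ℤ)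
  simp only [← Nat.cons_self_properDivisors h0.ne', Finset.prod_cons, eval_mul, Int.natAbs_mul, eval_sub, eval_pow, eval_X, eval_one] at e
  have e' : ((q : ℤ) ^ orderOf (q : ZMod r) - 1).natAbs = q ^ orderOf (q : ZMod r) - 1 := by
    rw [← Nat.cast_pow, ← Nat.cast_one (R := ℤ), ← Nat.cast_sub h1.le, Int.natAbs_natCast]
  have h2 := mul_ne_zero_iff.1 (e.trans e' ▸ (Nat.sub_pos_of_lt h1).ne')
  rw [← e', ← e, padicValNat.mul h2.1 h2.2, eq_comm, add_eq_left]
  refine padicValNat.eq_zero_of_not_dvd ?_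
  rw [← Int.natCast_dvd, eval_prod, (Nat.prime_iff_prime_int.1 hr.out).dvd_finset_prod_iff]
  rintro ⟨i, hi, h3⟩
  obtain ⟨h4, h5⟩ := Nat.mem_properDivisors.1 hi
  exact absurd (Nat.le_of_dvd (Nat.pos_of_dvd_of_pos h4 h0) (dvd_iff'.1 (h3.trans
    (by simpa using eval_dvd (x := (q : ℤ)) (cyclotomic.dvd_X_pow_sub_one i ℤ))))) h5.not_ge

theorem val_pow (hq : 2 ≤ q) (h : ¬ r ∣ q) {e : ℕ} (he : ¬ r ∣ e) (h2 : r = 2 → e = 1) : padicValNat r (q ^ e - 1) =
    if orderOf (q : ZMod r) ∣ e then padicValNat r (q ^ orderOf (q : ZMod r) - 1) else 0 := by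
  split_ifs with h3
  · by_cases e2 : r = 2
    · obtain rfl := h2 e2
      rw [Nat.dvd_one.1 h3]
    obtain ⟨k, rfl⟩ := h3
    have := padicValNat.pow_sub_pow (hr.out.odd_of_ne_two e2) (Nat.one_lt_pow (ord_pos h).ne' hq) ((dvd_iff (by omega)).2 dvd_rfl)
      (mt hr.out.dvd_of_dvd_pow h) (n := k) (by rintro rfl; simp at he)
    rw [one_pow, padicValNat.eq_zero_of_not_dvd (n := k) fun h => he (h.mul_left _)] at this
    rw [pow_mul, this, add_zero]
  · exact padicValNat.eq_zero_of_not_dvd (mt (dvd_iff (by omega)).1 h3)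

theorem val_prod (hq : 2 ≤ q) (h : ¬ r ∣ q) (s : Finset ℕ) (f : ℕ → ℕ) (hf : ∀ i ∈ s, ¬ r ∣ f i ∧ (r = 2 → f i = 1)) :
    padicValNat r (∏ i ∈ s, (q ^ f i - 1)) =
      (s.filter fun i => orderOf (q : ZMod r) ∣ f i).card * padicValNat r (q ^ orderOf (q : ZMod r) - 1) := by
  rw [← Nat.factorization_def _ hr.out, Nat.factorization_prod fun i hi => Nat.sub_ne_zero_of_lt (Nat.one_lt_pow (by
    rintro e; simpa [e] using (hf i hi).1) hq), Finset.sum_apply', Finset.sum_congr rfl fun i hi =>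
      (Nat.factorization_def _ hr.out).trans (val_pow hq h (hf i hi).1 (hf i hi).2), ← Finset.sum_filter]
  simp

theorem val_mul (h : ¬ r ∣ q) (hq : q ≠ 0) (a : ℕ) {n : ℕ} (hn : n ≠ 0) : padicValNat r (q ^ a * n) = padicValNat r n := by
  rw [padicValNat.mul (pow_ne_zero _ hq) hn, padicValNat.pow, padicValNat.eq_zero_of_not_dvd h]; simp

theorem syl_of_hom {G B : Type*} [Group G] [Finite G] [Group B] (φ : B →* G) (hφ : Function.Injective φ)
    (h : Nat.card B = r ^ padicValNat r (Nat.card G)) (P : Sylow r G) : Nonempty (P ≃* B) :=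
  let ⟨e⟩ := sylow_equiv (T := φ.range) ((Nat.card_congr (MonoidHom.ofInjective hφ).toEquiv).symm.trans h) P
  ⟨e.symm.trans (MonoidHom.ofInjective hφ).symm⟩

omit hr in
theorem exists_cyc {G : Type*} [Group G] [Finite G] [IsCyclic G] {m : ℕ} (h : m ∣ Nat.card G) :
    ∃ ψ : Multiplicative (ZMod m) →* G, Function.Injective ψ := by
  obtain ⟨g, hg⟩ := IsCyclic.exists_ofOrder_eq_natCard (α := G)
  have e := orderOf_pow_orderOf_div (orderOf_pos g).ne' (hg ▸ h)
  generalize g ^ _ = x at e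
  rw [← Nat.card_zpowers] at e
  subst e
  exact ⟨(zpowers x).subtype.comp (zmodCyclicMulEquiv inferInstance).toMonoidHom,
    Subtype.val_injective.comp (zmodCyclicMulEquiv inferInstance).injective⟩

variable {F : Type*} [Field F] [Finite F] {ι : Type} [Fintype ι] [DecidableEq ι]

omit hr in
theorem exists_gl {d m : ℕ} (hd : 0 < d) (h : m ∣ Nat.card F ^ d - 1) :
    ∃ φ : (Fin (Fintype.card ι / d) → Multiplicative (ZMod m)) →* GL ι F, Function.Injective φ := by
  obtain ⟨p, hp⟩ := CharP.exists F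
  have := Fact.mk (CharP.char_is_prime F p)
  have := NeZero.mk hd.ne'
  let K := FiniteField.Extension F p d
  obtain ⟨ψ, hψ⟩ := exists_cyc (G := Kˣ) (m := m) (by rwa [Nat.card_units, FiniteField.natCard_extension])
  let b := (finBasisOfFinrankEq F ((Fin (Fintype.card ι / d) → K) × (Fin (Fintype.card ι % d) → F)) (n := Fintype.card ι) (by
    simp [finrank_pi_fintype, K, FiniteField.finrank_extension, Nat.div_add_mod'])).reindex (Fintype.equivFin ι).symm
  refine ⟨((Algebra.leftMulMatrix b).toMonoidHom.comp ((MonoidHom.inl _ _).comp (((Units.coeHom K).comp ψ).compLeft _))).toHomUnits,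
    fun x y e => funext fun i => hψ (Units.ext ?_)⟩
  exact congrFun (congrArg Prod.fst (Algebra.leftMulMatrix_injective b (congrArg Units.val e))) i

theorem val_GL (h : ¬ r ∣ Nat.card F) (hn : Fintype.card ι < r) : padicValNat r (Nat.card (GL ι F)) =
    Fintype.card ι / orderOf (Nat.card F : ZMod r) * padicValNat r (Nat.card F ^ orderOf (Nat.card F : ZMod r) - 1) := by
  have := Fintype.ofFinite F
  have h1 := Finite.one_lt_card (α := F)
  rw [Nat.card_congr (Units.mapEquiv (reindexAlgEquiv F F (Fintype.equivFin ι)).toMulEquiv).toEquiv, ← Nat.card_multiples,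
    ← val_prod h1 h _ (· + 1) fun i hi => ⟨Nat.not_dvd_of_pos_of_lt i.succ_pos (by simp at hi; omega), fun e => by simp at hi; omega⟩]
  erw [card_GL_field]
  rw [← Nat.card_eq_fintype_card (α := F), Fin.prod_univ_eq_prod_range fun i => _ ^ _ - _ ^ i, ← Finset.prod_range_reflect,
    ← val_mul h (by omega) (∑ i ∈ Finset.range (Fintype.card ι), (Fintype.card ι - 1 - i)) (n := ∏ i ∈ _, _)
      (Finset.prod_ne_zero_iff.2 fun i _ => Nat.sub_ne_zero_of_lt (Nat.one_lt_pow i.succ_ne_zero h1)),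
    ← Finset.prod_pow_eq_pow_sum, ← Finset.prod_mul_distrib]
  refine congrArg _ (Finset.prod_congr rfl fun i hi => ?_)
  rw [Nat.mul_sub_one, ← pow_add]
  congr 2
  simp at hi; omega

theorem gl_syl (h : ¬ r ∣ Nat.card F) (hn : Fintype.card ι < r) (P : Sylow r (GL ι F)) :
    Nonempty (P ≃* (Fin (Fintype.card ι / orderOf (Nat.card F : ZMod r)) →
      Multiplicative (ZMod (r ^ padicValNat r (Nat.card F ^ orderOf (Nat.card F : ZMod r) - 1))))) := by
  obtain ⟨φ, hφ⟩ := exists_gl (F := F) (ι := ι) (ord_pos h) (pow_padicValNat_dvd (p := r))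
  exact syl_of_hom φ hφ (by simp [val_GL h hn, Nat.card_fun, ← pow_mul, mul_comm]) P

theorem sl_syl (h : ¬ r ∣ Nat.card F) {n : ℕ} (hn : n < r) (P : Sylow r SL(n, F)) :
    Nonempty (P ≃* (Fin ((Finset.Icc 2 n).filter fun i => orderOf (Nat.card F : ZMod r) ∣ i).card →
      Multiplicative (ZMod (r ^ padicValNat r (Nat.card F ^ orderOf (Nat.card F : ZMod r) - 1))))) := by
  have := Fintype.ofFinite F
  have h1 := Finite.one_lt_card (α := F)
  rcases n with _ | n
  · rw [show Finset.card _ = 0 by simp]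
    exact syl_of_hom (G := SL(0, F)) 1 (fun _ _ _ => Subsingleton.elim _ _) (by simp) P
  have v := val_GL (F := F) (ι := Fin (n + 1)) h (by simpa using hn)
  have v1 := val_pow h1 h hr.out.not_dvd_one fun _ => rfl
  have c := Nat.Ioc_filter_dvd_card_eq_div (n + 1) (orderOf (Nat.card F : ZMod r))
  rw [show Finset.Ioc 0 (n + 1) = insert 1 (Finset.Icc 2 (n + 1)) by ext; simp; omega, Finset.filter_insert] at c
  rw [pow_one] at v1
  rw [← H10.card_units_mul_card_SL, padicValNat.mul Nat.card_pos.ne' Nat.card_pos.ne', Nat.card_units, Fintype.card_fin, v1] at v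
  have gl := exists_gl (F := F) (ι := Fin (n + 1)) (ord_pos h) (pow_padicValNat_dvd (p := r))
  rw [Fintype.card_fin] at gl
  have hd := dvd_iff (q := Nat.card F) (r := r) (by omega) (e := 1)
  have hv : r ^ padicValNat r (Nat.card F ^ orderOf (Nat.card F : ZMod r) - 1) ∣ _ := pow_padicValNat_dvd
  generalize orderOf (Nat.card F : ZMod r) = d at *
  generalize padicValNat r (Nat.card F ^ d - 1) = w at *
  split_ifs at v c with e
  · obtain rfl := Nat.dvd_one.1 e
    obtain ⟨ψ, hψ⟩ := exists_cyc (G := Fˣ) (m := r ^ w) (by rwa [Nat.card_units, ← pow_one (Nat.card F)])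
    rw [show Finset.card _ = n by simp]
    refine syl_of_hom (G := SL(n + 1, F)) (.mk' (fun f => ⟨diagonal (Fin.cons (∏ i, ψ (f i))⁻¹.1 fun i => (ψ (f i)).1), by simp [Fin.prod_univ_succ, Finset.prod_ne_zero_iff]⟩)
      fun x y => Subtype.ext ?_) (fun x y k => funext fun i => hψ (Units.ext ?_)) ?_ P
    · change diagonal _ = diagonal _ * diagonal _
      rw [diagonal_mul_diagonal]
      congr 1
      ext i
      refine Fin.cases ?_ (fun i => ?_) i <;> simp [Finset.prod_mul_distrib, mul_comm]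
    · exact congrFun (diagonal_injective (congrArg Subtype.val k)) i.succ
    · rw [show padicValNat r _ = n * w by simp [add_mul] at v; omega]
      simp [Nat.card_fun, ← pow_mul, mul_comm]
  · obtain ⟨φ, hφ⟩ := gl
    rw [c]
    have : ∀ f, (φ f).1.det = 1 := fun f => by
      have k : IsPGroup r (Fin ((n + 1) / d) → Multiplicative (ZMod (r ^ w))) := .of_card (n := w * ((n + 1) / d)) (by simp [Nat.card_fun, pow_mul])
      obtain ⟨j, hj⟩ := k f
      refine congrArg Units.val ((pow_eq_one_iff_of_coprime (a := GeneralLinearGroup.det (φ f)) (m := r ^ j) (n := Nat.card Fˣ)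
        (.pow_left _ ((Nat.Prime.coprime_iff_not_dvd hr.out).2 ?_))).1 ⟨by rw [← map_pow, ← map_pow, hj, map_one, map_one], pow_card_eq_one'⟩)
      rw [Nat.card_units, ← pow_one (Nat.card F)]
      exact mt hd.1 e
    exact syl_of_hom (G := SL(n + 1, F)) (.mk' (fun f => ⟨(φ f).1, this f⟩) fun x y => Subtype.ext (congrArg Units.val (φ.map_mul x y))) (fun x y k => hφ (Units.ext (congrArg Subtype.val k)))
      (by rw [zero_add] at v; simp [v, Nat.card_fun, ← pow_mul, mul_comm]) P

theorem sp_syl (h : ¬ r ∣ Nat.card F) (h2 : r ≠ 2) {n : ℕ} (hn : n < r) (P : Sylow r (symplecticGroup (Fin n) F)) :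
    Nonempty (P ≃* (Fin ((Finset.Icc 1 n).filter fun i => orderOf (Nat.card F : ZMod r) ∣ 2 * i).card →
      Multiplicative (ZMod (r ^ padicValNat r (Nat.card F ^ orderOf (Nat.card F : ZMod r) - 1))))) := by
  have h1 := Finite.one_lt_card (α := F)
  have val : ∀ n < r, padicValNat r (Nat.card (stdSymp n F).Isom) = ((Finset.range n).filter fun i =>
      orderOf (Nat.card F : ZMod r) ∣ 2 * (i + 1)).card * padicValNat r (Nat.card F ^ orderOf (Nat.card F : ZMod r) - 1) := fun n hn => by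
    rw [symp_card_Isom n (stdSymp_nondeg n) (by simp [two_mul]), val_mul h (by omega) _ (Finset.prod_ne_zero_iff.2 fun i _ =>
      Nat.sub_ne_zero_of_lt (Nat.one_lt_pow (by simp) h1)), val_prod h1 h _ (fun i => 2 * (i + 1)) fun i hi => ⟨fun e =>
        (hr.out.dvd_mul.1 e).elim (fun e => h2 ((Nat.prime_dvd_prime_iff_eq hr.out Nat.prime_two).1 e))
          (Nat.not_dvd_of_pos_of_lt i.succ_pos (by simp at hi; omega)), fun e => (h2 e).elim⟩]
  have d0 := ord_pos h
  have d1 := ord_lt h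
  have gl := fun (ι : Type) [Fintype ι] [DecidableEq ι] => gl_syl (ι := ι) h
  have vl := fun (ι : Type) [Fintype ι] [DecidableEq ι] => val_GL (ι := ι) h
  rw [show (Finset.Icc 1 n).filter _ = ((Finset.range n).filter fun i => orderOf (Nat.card F : ZMod r) ∣ 2 * (i + 1)).map
    ⟨(· + 1), add_left_injective 1⟩ by ext (_ | i) <;> simp, Finset.card_map]
  generalize orderOf (Nat.card F : ZMod r) = d at *
  generalize padicValNat r (Nat.card F ^ d - 1) = v at *
  have fin : ∀ n, Finite (symplecticGroup (Fin n) F) := fun n => have := finite_isom (S := stdSymp n F); .of_equiv _ (spEquiv n F).symm.toEquiv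
  suffices ∃ φ : (Fin ((Finset.range n).filter fun i => d ∣ 2 * (i + 1)).card → Multiplicative (ZMod (r ^ v))) →*
      symplecticGroup (Fin n) F, Function.Injective φ by
    obtain ⟨φ, hφ⟩ := this
    exact syl_of_hom φ hφ (by simp [Nat.card_congr (spEquiv n F).toEquiv, val n hn, Nat.card_fun, ← pow_mul, mul_comm]) P
  rcases d.even_or_odd with ⟨e, rfl⟩ | hd
  · have e0 : 0 < e := by omega
    have := NeZero.mk e0.ne'
    rw [show Finset.card _ = n / e by simp only [← two_mul, Nat.mul_dvd_mul_iff_left two_pos, Nat.card_multiples]]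
    simp only [← two_mul, Nat.mul_dvd_mul_iff_left two_pos, Nat.card_multiples] at val
    obtain ⟨Q⟩ : Nonempty (Sylow r (symplecticGroup (Fin e) F)) := inferInstance
    let θ : symplecticGroup (Fin e) F →* GL (Fin e ⊕ Fin e) F := MonoidHom.toHomUnits (symplecticGroup (Fin e) F).subtype
    have hθ : Function.Injective θ := fun x y e => Subtype.ext (congrArg Units.val e)
    obtain ⟨R⟩ : Nonempty (Sylow r (GL (Fin e ⊕ Fin e) F)) := inferInstance
    obtain ⟨a⟩ := gl (Fin e ⊕ Fin e) (by simpa using d1) R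
    obtain ⟨b⟩ := syl_of_hom (θ.comp Q.1.subtype) (hθ.comp Subtype.val_injective) (by
      rw [card_syl, vl _ (by simpa using d1), Nat.card_congr (spEquiv e F).toEquiv, val e (by omega)]
      simp [Nat.div_self, e0]) R
    let ψ : Multiplicative (ZMod (r ^ v)) →* (stdSymp e F).Isom := (spEquiv e F).toMonoidHom.comp (Q.1.subtype.comp
      ((a.symm.trans b).toMonoidHom.comp (Pi.constMonoidHom _ _)))
    have hψ : Function.Injective ψ := (spEquiv e F).injective.comp (Subtype.val_injective.comp ((a.symm.trans b).injective.comp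
      fun x y k => congrFun k ⟨0, by simp [Nat.div_self, e0]⟩))
    obtain ⟨β, π, γ, w, -⟩ := exists_wr (stdSymp e F) (stdSymp (n % e) F) (Fin (n / e))
    obtain ⟨c⟩ := (symp_eqv _ ((nondeg_pi fun _ : Fin (n / e) => stdSymp_nondeg e).prod (stdSymp_nondeg (n % e)))
      (stdSymp_nondeg (F := F) n) rfl (by
        have := Nat.div_add_mod' n e
        simp [finrank_pi_fintype, mul_add]; omega)).nonempty_mulEquiv
    refine ⟨(c.trans (spEquiv n F).symm).toMonoidHom.comp (β.comp (ψ.compLeft _)), (c.trans (spEquiv n F).symm).injective.comp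
      ((injective_iff_map_eq_one (β.comp (ψ.compLeft _))).2 fun f k => funext fun i => hψ ?_)⟩
    rw [Pi.one_apply, map_one]
    exact congrFun (w.inj (fun i => ψ (f i)) 1 1 (by rw [map_one, map_one, mul_one, mul_one]; exact k)).1 i
  · rw [show Finset.card _ = n / d by simp only [(Nat.coprime_two_right.2 hd).dvd_mul_left, Nat.card_multiples]]
    obtain ⟨R⟩ : Nonempty (Sylow r (GL (Fin n) F)) := inferInstance
    obtain ⟨a⟩ := gl (Fin n) (by simpa using hn) R
    rw [Fintype.card_fin] at a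
    let θ : GL (Fin n) F →* symplecticGroup (Fin n) F := .mk' (fun g => ⟨fromBlocks g.1 0 0 (g⁻¹).1ᵀ, by
      simp [SymplecticGroup.mem_iff, J, fromBlocks_transpose, fromBlocks_multiply, ← transpose_mul]⟩) fun x y => Subtype.ext (by
        simp [fromBlocks_multiply])
    have hθ : Function.Injective θ := fun x y e => Units.ext (fromBlocks_inj.1 (congrArg Subtype.val e)).1
    exact ⟨θ.comp (R.1.subtype.comp a.symm.toMonoidHom), hθ.comp (Subtype.val_injective.comp a.symm.injective)⟩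

end H19.Hc
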