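import Cfsg.Agent.H3.B7

/-! Passman: half-transitive linear `p`-groups, part 1 (`cent_fpf`, `swap`, `card_sq`, `mc_case`). -/

set_option autoImplicit false

namespace H19.Pass
open Subgroup Cfsg H18 H3.Imp

variable {G : Type*} [Group G] [Finite G] {p : ℕ} {F : Type*} [Field F] {V : Type*}
  [AddCommGroup V] [Module F V] (ρ : G →* (V ≃ₗ[F] V))

/-- stabilizer of a vector -/
def St (v : V) : Subgroup G where
  carrier := {g | ρ g v = v}
  one_mem' := by simp
  mul_mem' := fun {a b} ha hb => by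
    change ρ (a * b) v = v
    rw [mul_app, hb, ha]
  inv_mem' := fun {a} ha => fix_inv ρ ha

omit [Finite G] in
theorem mem_St {g : G} {v : V} : g ∈ St ρ v ↔ ρ g v = v := Iff.rfl

/-- all stabilizers of non-zero vectors have the same order -/
def Half : Prop := ∀ v w : V, v ≠ 0 → w ≠ 0 → Nat.card (St ρ v) = Nat.card (St ρ w)

/-- the norm map -/
def Nm (n : ℕ) (a : G) (v : V) : V := ∑ i ∈ Finset.range n, ρ (a ^ i) v

omit [Finite G] in
theorem Nm_add (n : ℕ) (a : G) (v w : V) : Nm ρ n a (v + w) = Nm ρ n a v + Nm ρ n a w := by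
  simp [Nm, Finset.sum_add_distrib]

omit [Finite G] in
theorem Nm_fix (n : ℕ) {a : G} {v : V} (h : ρ a v = v) : Nm ρ n a v = (n : F) • v := by
  simp only [Nm, fix_pow ρ h, Finset.sum_const, Finset.card_range, Nat.cast_smul_eq_nsmul]

omit [Finite G] in
theorem Nm_comm (n : ℕ) {a g : G} (h : Commute g a) (v : V) :
    Nm ρ n a (ρ g v) = ρ g (Nm ρ n a v) := by
  simp only [Nm, map_sum, ← mul_app, (h.pow_right _).eq]

theorem St_eq (hs : Half ρ) {v w : V} (hv : v ≠ 0) (hw : w ≠ 0) (hvw : v + w ≠ 0)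
    (h : ∀ g, ρ g (v + w) = v + w → ρ g v = v ∧ ρ g w = w) : St ρ v = St ρ w := by
  have h1 : St ρ (v + w) = St ρ v :=
    eq_of_le_of_card_ge (fun g hg => (h g hg).1) (hs _ _ hv hvw).le
  have h2 : St ρ (v + w) = St ρ w :=
    eq_of_le_of_card_ge (fun g hg => (h g hg).2) (hs _ _ hw hvw).le
  rw [← h1, h2]

theorem cent_fpf (hρ : Function.Injective ρ) (hs : Half ρ) (hp : (p : F) ≠ 0) {z : G}
    (hz : z ∈ center G) (h1 : z ≠ 1) (hzp : z ^ p = 1) {w : V} (hw : ρ z w = w) : w = 0 := by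
  by_contra hw0
  obtain ⟨v, hv⟩ : ∃ v, ρ z v ≠ v := by
    by_contra hc
    push Not at hc
    exact h1 (hρ (by rw [map_one]; exact LinearEquiv.ext hc))
  have hc : ∀ g, Commute g z := fun g => mem_center_iff.1 hz g
  have hy : Nm ρ p z (ρ z v - v) = 0 := by
    have e : ρ z v - v + v = ρ z v := by abel
    have h2 := Nm_add ρ p z (ρ z v - v) v
    rw [e, Nm_comm ρ p (hc z), show ρ z (Nm ρ p z v) = Nm ρ p z v from norm_mem_fix ρ hzp v] at h2
    simpa using h2
  have hy0 : ρ z v - v ≠ 0 := sub_ne_zero.2 hv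
  set y := ρ z v - v
  have key : St ρ w = St ρ y := by
    refine St_eq ρ hs hw0 hy0 (fun e => ?_) fun g hg => ?_
    · have := congrArg (Nm ρ p z) e
      rw [Nm_add, hy, Nm_fix ρ p hw, add_zero, Nm_fix ρ p (map_zero _), smul_zero] at this
      exact hw0 ((smul_eq_zero.1 this).resolve_left hp)
    · have := congrArg (Nm ρ p z) hg
      rw [Nm_comm ρ p (hc g), Nm_add, hy, add_zero, Nm_fix ρ p hw, map_smul] at this
      have h3 := smul_right_injective V hp this
      refine ⟨h3, ?_⟩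
      rw [map_add, h3] at hg
      exact add_left_cancel hg
  have h4 : ρ z y = y := (mem_St ρ).1 (key ▸ (mem_St ρ).2 hw)
  rw [Nm_fix ρ p h4] at hy
  exact hy0 ((smul_eq_zero.1 hy).resolve_left hp)

theorem neg_of_cent (hρ : Function.Injective ρ) (hs : Half ρ) (hp : ((2 : ℕ) : F) ≠ 0) {z : G}
    (hz : z ∈ center G) (h1 : z ≠ 1) (hzp : z ^ 2 = 1) (w : V) : ρ z w = -w := by
  have := cent_fpf ρ hρ hs hp hz h1 hzp (norm_mem_fix ρ hzp w)
  simp only [Finset.sum_range_succ, Finset.sum_range_zero, pow_zero, map_one, pow_one,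
    zero_add] at this
  exact eq_neg_of_add_eq_zero_right this

theorem Nm_zero (hρ : Function.Injective ρ) (hs : Half ρ) (hp : (p : F) ≠ 0) {u c : G}
    (hu : u ^ p = 1) (hc : c ∈ center G) (h1 : c ≠ 1) (hcp : c ^ p = 1) {v : V}
    (hv : ρ (c * u) v = v) : Nm ρ p u v = 0 := by
  have hcc : ∀ g, Commute g c := fun g => mem_center_iff.1 hc g
  refine cent_fpf ρ hρ hs hp hc h1 hcp ?_
  have h2 : ρ u (Nm ρ p u v) = Nm ρ p u v := norm_mem_fix ρ hu v
  have h3 := Nm_comm ρ p (((hcc u).symm).mul_left (Commute.refl u)) v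
  rw [hv, mul_app, h2] at h3
  exact h3.symm

theorem swap_or [Fact p.Prime] (hρ : Function.Injective ρ) (hs : Half ρ) (hp : (p : F) ≠ 0)
    {u z : G} (hu : u ^ p = 1) (hz : z ∈ center G) (h1 : z ≠ 1) (hzp : z ^ p = 1)
    (hc : ∀ g, g * u * g⁻¹ * u⁻¹ ∈ center G) {v w : V} (hv : ρ u v = v) (hw : ρ (z * u) w = w)
    (hv0 : v ≠ 0) (hw0 : w ≠ 0) {g : G} (hg : ρ g (v + w) = v + w) :
    (ρ g v = v ∧ ρ g w = w) ∨ (ρ g v = w ∧ ρ g w = v ∧ z ^ 2 = 1) := by
  set c := g * u * g⁻¹ * u⁻¹ with hcd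
  have hcc : ∀ a, Commute a c := fun a => mem_center_iff.1 (hc g) a
  have hzc : ∀ a, Commute a z := fun a => mem_center_iff.1 hz a
  have e1 : g * u * g⁻¹ = c * u := by rw [hcd]; group
  have hcp : c ^ p = 1 := by
    have : (c * u) ^ p = 1 := by rw [← e1, conj_pow, hu]; group
    rwa [(hcc u).symm.mul_pow, hu, mul_one] at this
  have hgv : ρ (c * u) (ρ g v) = ρ g v := by
    rw [← e1, ← mul_app, inv_mul_cancel_right, mul_app, hv]
  have hgw : ρ (z * c * u) (ρ g w) = ρ g w := by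
    have : z * c * u * g = g * (z * u) := by
      rw [mul_assoc z, ← e1, ← mul_assoc g z, (hzc g).eq]; group
    rw [← mul_app, this, mul_app, hw]
  have hN := congrArg (Nm ρ p u) hg
  rw [map_add, Nm_add, Nm_add, Nm_fix ρ p hv, Nm_zero ρ hρ hs hp hu hz h1 hzp hw, add_zero] at hN
  rw [map_add] at hg
  by_cases h2 : c = 1
  · left
    rw [h2, one_mul] at hgv
    rw [h2, mul_one] at hgw
    rw [Nm_fix ρ p hgv, Nm_zero ρ hρ hs hp hu hz h1 hzp hgw, add_zero] at hN
    have h3 := smul_right_injective V hp hN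
    exact ⟨h3, add_left_cancel (h3 ▸ hg :)⟩
  right
  rw [Nm_zero ρ hρ hs hp hu (hc g) h2 hcp hgv, zero_add] at hN
  have h3 : z * c = 1 := by
    by_contra h3
    rw [Nm_zero ρ hρ hs hp hu (mul_mem hz (hc g)) h3
      (by rw [(hcc z).mul_pow, hzp, hcp, one_mul]) hgw] at hN
    exact hv0 ((smul_eq_zero.1 hN.symm).resolve_left hp)
  rw [h3, one_mul] at hgw
  rw [Nm_fix ρ p hgw] at hN
  have h4 := smul_right_injective V hp hN
  have h5 : ρ g v = w := by
    rw [h4, add_comm v w] at hg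
    exact add_right_cancel hg
  refine ⟨h5, h4, ?_⟩
  rw [h5] at hgv
  by_contra h6
  have h7 : c = z⁻¹ := eq_inv_of_mul_eq_one_right h3
  refine hw0 (cent_fpf ρ hρ hs hp (pow_mem hz 2) h6 (by rw [← pow_mul, mul_comm, pow_mul, hzp, one_pow]) ?_)
  have : z ^ 2 = z * u * (c * u)⁻¹ := by rw [h7, sq]; group
  rw [this, mul_app, fix_inv ρ hgv, hw]

theorem swap [Fact p.Prime] (hρ : Function.Injective ρ) (hs : Half ρ) (hp : (p : F) ≠ 0)
    {u z : G} (hu : u ^ p = 1) (hz : z ∈ center G) (h1 : z ≠ 1) (hzp : z ^ p = 1)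
    (hc : ∀ g, g * u * g⁻¹ * u⁻¹ ∈ center G) {v w : V} (hv : ρ u v = v) (hw : ρ (z * u) w = w)
    (hv0 : v ≠ 0) (hw0 : w ≠ 0) : v + w ≠ 0 ∧ ∃ g, ρ g v = w ∧ ρ g w = v ∧ z ^ 2 = 1 := by
  have h0 : v + w ≠ 0 := fun e => by
    have := congrArg (Nm ρ p u) e
    rw [Nm_add, Nm_fix ρ p hv, Nm_zero ρ hρ hs hp hu hz h1 hzp hw, add_zero,
      Nm_fix ρ p (map_zero _), smul_zero] at this
    exact hv0 ((smul_eq_zero.1 this).resolve_left hp)
  refine ⟨h0, ?_⟩
  by_contra hn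
  have key := St_eq ρ hs hv0 hw0 h0 fun g hg =>
    (swap_or ρ hρ hs hp hu hz h1 hzp hc hv hw hv0 hw0 hg).resolve_right fun h => hn ⟨g, h⟩
  have h2 : ρ u w = w := (mem_St ρ).1 (key ▸ (mem_St ρ).2 hv)
  rw [mul_app, h2] at hw
  exact hw0 (cent_fpf ρ hρ hs hp hz h1 hzp hw)

omit [Finite G] in
theorem isCompl_fix (h2 : ((2 : ℕ) : F) ≠ 0) {t z : G} (ht : t ^ 2 = 1) (hz : ∀ w, ρ z w = -w) :
    IsCompl (fix ρ t) (fix ρ (z * t)) := by
  have h2' : (2 : F) ≠ 0 := by exact_mod_cast h2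
  have htt : ∀ v, ρ t (ρ t v) = v := fun v => by rw [← mul_app, ← sq, ht, map_one]; rfl
  refine ⟨Submodule.disjoint_def.2 fun v h3 h4 => ?_, codisjoint_iff.2 (eq_top_iff.2 fun v _ => ?_)⟩
  · rw [mem_fix] at h3 h4
    rw [mul_app, h3, hz] at h4
    have : (2 : F) • v = 0 := by rw [two_smul]; nth_rw 1 [← h4]; abel
    exact (smul_eq_zero.1 this).resolve_left h2'
  · refine Submodule.mem_sup.2 ⟨(2 : F)⁻¹ • (v + ρ t v), Submodule.smul_mem _ _ ?_,
      (2 : F)⁻¹ • (v - ρ t v), Submodule.smul_mem _ _ ?_, ?_⟩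
    · rw [mem_fix, map_add, htt, add_comm]
    · rw [mem_fix, mul_app, hz, map_sub, htt, neg_sub]
    · rw [← smul_add, show v + ρ t v + (v - ρ t v) = (2 : F) • v by rw [two_smul]; abel, smul_smul,
        inv_mul_cancel₀ h2', one_smul]

omit [Finite G] in
theorem card_fix_conj (g t : G) : Nat.card (fix ρ (g * t * g⁻¹)) = Nat.card (fix ρ t) := by
  rw [← map_fix]
  exact (Nat.card_congr ((ρ g).submoduleMap (fix ρ t)).toEquiv).symm

omit [Finite G] in
theorem card_sq (h2 : ((2 : ℕ) : F) ≠ 0) {t z g : G} (ht : t ^ 2 = 1) (hz : ∀ w, ρ z w = -w)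
    (hg : g * t * g⁻¹ = z * t) : Nat.card (fix ρ t) ^ 2 = Nat.card V := by
  rw [← Nat.card_congr (Submodule.prodEquivOfIsCompl _ _ (isCompl_fix ρ h2 ht hz)).toEquiv,
    Nat.card_prod, ← hg, card_fix_conj, sq]

theorem exists_pow [Fact p.Prime] (hG : IsPGroup p G) {g : G} (h1 : g ≠ 1) :
    ∃ z ∈ zpowers g, z ≠ 1 ∧ z ^ p = 1 := by
  obtain ⟨k, hk⟩ := hG g
  obtain ⟨j, h2, h3⟩ := H9.exists_notMem_pow_mem (A := ⊥) hk (by simpa using h1)
  exact ⟨g ^ p ^ j, npow_mem_zpowers _ _, by simpa using h2, by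
    rw [← pow_mul, ← pow_succ]; simpa using h3⟩

/-- counting fixed vectors -/
theorem count [Finite V] (hst : ∀ v : V, v ≠ 0 → Nat.card (St ρ v) = 2) (T : Set G) (h1 : 1 ∉ T)
    {r : ℕ} (hT : ∀ t ∈ T, Nat.card (fix ρ t) = r)
    (hn : ∀ g, g ≠ 1 → g ∉ T → ∀ v, ρ g v = v → v = 0) :
    Nat.card V - 1 = Nat.card T * (r - 1) := by
  classical
  let _ := Fintype.ofFinite G
  let _ := Fintype.ofFinite V
  have e := Finset.sum_comm (s := Finset.univ) (t := Finset.univ)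
    (f := fun (g : G) (v : V) => if v ≠ 0 ∧ ρ g v = v then 1 else 0)
  simp only [← Finset.card_filter] at e
  have e1 : ∀ g : G, (Finset.univ.filter fun v : V => v ≠ 0 ∧ ρ g v = v).card =
      Nat.card (fix ρ g) - 1 := fun g => by
    have : (Finset.univ.filter fun v : V => v ≠ 0 ∧ ρ g v = v) =
        (Finset.univ.filter fun v : V => v ∈ fix ρ g).erase 0 := by
      ext v; simp [mem_fix]
    rw [this, Finset.card_erase_of_mem (by simp), Nat.card_eq_fintype_card, Fintype.card_subtype]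
  have e2 : ∀ v : V, (Finset.univ.filter fun g : G => v ≠ 0 ∧ ρ g v = v).card =
      if v ≠ 0 then 2 else 0 := fun v => by
    split_ifs with h
    · rw [← hst v h, Nat.card_eq_fintype_card, Fintype.card_subtype]
      congr 1
      ext g; simp [h, mem_St]
    · simp [h]
  have e3 : ∀ g : G, Nat.card (fix ρ g) - 1 =
      (if g = 1 then Nat.card V - 1 else 0) + if g ∈ T then r - 1 else 0 := fun g => by
    by_cases h : g = 1
    · subst h
      have : fix ρ 1 = ⊤ := eq_top_iff.2 fun v _ => by simp [mem_fix]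
      rw [this, if_pos rfl, if_neg h1, add_zero, Nat.card_congr Submodule.topEquiv.toEquiv]
    · rw [if_neg h, zero_add]
      split_ifs with h2
      · rw [hT g h2]
      · have : fix ρ g = ⊥ := eq_bot_iff.2 fun v hv => hn g h h2 v hv
        rw [this]; simp
  simp only [e1, e2, e3, Finset.sum_add_distrib, Finset.sum_ite_eq', Finset.mem_univ, if_true] at e
  rw [← Finset.sum_filter, ← Finset.sum_filter, Finset.sum_const, Finset.sum_const, smul_eq_mul,
    smul_eq_mul, Finset.filter_ne', Finset.card_erase_of_mem (Finset.mem_univ _), Finset.card_univ,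
    ← Nat.card_eq_fintype_card, ← Fintype.card_subtype, ← Nat.card_eq_fintype_card] at e
  change _ + Nat.card T * (r - 1) = _ at e
  omega

end H19.Pass
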