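import Cfsg.Agent.H19.Pass1

/-! Passman: half-transitive linear `p`-groups, part 2 (`mc_case`, `imp_case`, `passman`). -/

set_option autoImplicit false

namespace H19.Pass
open Subgroup Cfsg H18 H3.Imp

variable {G : Type*} [Group G] [Finite G] {q : ℕ} [Fact q.Prime] {V : Type*}
  [AddCommGroup V] [Module (ZMod q) V] [Finite V] [Nontrivial V] (ρ : G →* (V ≃ₗ[ZMod q] V))

theorem odd_q (h2 : ((2 : ℕ) : ZMod q) ≠ 0) : Odd q :=
  (Fact.out : q.Prime).odd_of_ne_two (by rintro rfl; exact h2 rfl)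

omit [Finite V] [Nontrivial V] in
theorem mc_fpf (hρ : Function.Injective ρ) (hs : Half ρ) (h2 : ((2 : ℕ) : ZMod q) ≠ 0) {k : ℕ}
    {x : G} (h : H9.MC (⊤ : Subgroup G) k x) {a : G} (ha : a ∈ zpowers x) (h1 : a ≠ 1) {v : V}
    (hv : ρ a v = v) : v = 0 := by
  have hG : IsPGroup 2 G := IsPGroup.of_card (by rw [← card_top, h.card_eq])
  obtain ⟨z, hz, hz1, hz2⟩ := exists_pow hG h1
  have hzu := (h.eq_one_or_eq_u (zpowers_le.2 ha hz) (by rwa [← sq])).resolve_left hz1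
  exact cent_fpf ρ hρ hs h2 (hzu ▸ mem_center_iff.2 fun g => h.commute_u (mem_top g)) hz1 hz2
    ((zpowers_le.2 ((mem_St ρ).2 hv) : zpowers a ≤ St ρ v) hz)

theorem mc_count (hρ : Function.Injective ρ) (hs : Half ρ) (h2 : ((2 : ℕ) : ZMod q) ≠ 0) {k : ℕ}
    {x : G} (h : H9.MC (⊤ : Subgroup G) k x) {t : G} (ht : t ∉ zpowers x) (ht2 : t * t = 1)
    (B : Subgroup G) {m : ℕ} (hB : Nat.card B = 2 ^ m)
    (hT : ∀ g, (g ∉ zpowers x ∧ g * g = 1) ↔ g * t⁻¹ ∈ B) :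
    Nat.card V = q ^ 2 ∧ q = 2 ^ m - 1 := by
  have hq : q.Prime := Fact.out
  have hu := neg_of_cent ρ hρ hs h2 (mem_center_iff.2 fun g => h.commute_u (mem_top g)) h.u_ne_one
    (by rw [sq, h.u_mul_u])
  have hsq : ∀ s, s ∉ zpowers x → s * s = 1 → Nat.card (fix ρ s) ^ 2 = Nat.card V := by
    intro s h3 h4
    obtain ⟨a, -, ha⟩ := h.exists_conj_out (mem_top s) h3 h.u_mem_sq
    exact card_sq ρ h2 (by rwa [sq]) hu ha
  have hr := hsq t ht ht2
  set r := Nat.card (fix ρ t) with hrd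
  have hV : 1 < Nat.card V := Finite.one_lt_card
  have hr1 : 1 < r := by
    by_contra hc
    have : r ^ 2 ≤ 1 ^ 2 := Nat.pow_le_pow_left (by omega) 2
    omega
  obtain ⟨⟨v0, hv0⟩, hv1⟩ := @exists_ne _ (Finite.one_lt_card_iff_nontrivial.1 hr1) (0 : fix ρ t)
  have hv2 : v0 ≠ 0 := fun e => hv1 (Subtype.ext e)
  have hst0 : Nat.card (St ρ v0) = 2 := by
    have : St ρ v0 = zpowers t := by
      refine le_antisymm (fun g hg => ?_) (zpowers_le.2 hv0)
      by_cases h3 : g ∈ zpowers x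
      · by_cases h4 : g = 1
        · exact h4 ▸ one_mem _
        exact absurd (mc_fpf ρ hρ hs h2 h h3 h4 hg) hv2
      · have h4 : g * t⁻¹ = 1 := by
          by_contra h4
          exact hv2 (mc_fpf ρ hρ hs h2 h (h.mul_inv_mem (mem_top _) (mem_top _) h3 ht) h4
            (mul_mem hg (inv_mem (show t ∈ St ρ v0 from hv0)) : g * t⁻¹ ∈ St ρ v0))
        rw [mul_inv_eq_one.1 h4]; exact mem_zpowers t
    rw [this, Nat.card_zpowers]
    exact orderOf_eq_prime (by rwa [sq]) fun e => ht (e ▸ one_mem _)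
  have hc := count ρ (fun v hv => (hs v v0 hv hv2).trans hst0) {g | g ∉ zpowers x ∧ g * g = 1}
    (fun e => e.1 (one_mem _)) (r := r)
    (fun s hs' => Nat.pow_left_injective two_ne_zero ((hsq s hs'.1 hs'.2).trans hr.symm))
    (fun g h3 h4 v hv => by
      by_cases h5 : g ∈ zpowers x
      · exact mc_fpf ρ hρ hs h2 h h5 h3 hv
      · have h6 := (h.sq_cases (mem_top g) h5).resolve_left fun e => h4 ⟨h5, e⟩
        exact mc_fpf ρ hρ hs h2 h h.u_mem_x h.u_ne_one (by rw [← h6, mul_app, hv, hv]))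
  have hcT : Nat.card {g | g ∉ zpowers x ∧ g * g = 1} = 2 ^ m := by
    rw [← hB]
    exact Nat.card_congr ((Equiv.mulRight t⁻¹).subtypeEquiv hT)
  rw [hcT, ← hr] at hc
  have h3 : 2 ^ m = r + 1 := by
    obtain ⟨s, hs'⟩ : ∃ s, r = s + 1 := ⟨r - 1, by omega⟩
    rw [hs'] at hc hr1 ⊢
    have : (s + 1) ^ 2 - 1 = (s + 1 + 1) * s := by
      rw [show (s + 1) ^ 2 = (s + 1 + 1) * s + 1 by ring]; rfl
    rw [this, Nat.add_sub_cancel] at hc
    exact (Nat.eq_of_mul_eq_mul_right (by omega) hc).symm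
  have h4 : r = q ^ Module.finrank (ZMod q) (fix ρ t) := by
    rw [hrd, Module.natCard_eq_pow_finrank (K := ZMod q), Nat.card_zmod]
  have h5 := two_pow_eq (odd_q h2) (fun e => by rw [e, pow_zero] at h4; omega) hq.one_lt.ne' (h4 ▸ h3)
  rw [h5, pow_one] at h4
  exact ⟨by rw [← hr, h4], by omega⟩

theorem mc_case (hρ : Function.Injective ρ) (hs : Half ρ) (h2 : ((2 : ℕ) : ZMod q) ≠ 0) {k : ℕ}
    {x : G} (h : H9.MC (⊤ : Subgroup G) k x) :
    ((∃ n : ℕ, Nonempty (G ≃* QuaternionGroup n)) ∧ ∀ v : V, v ≠ 0 → ∀ g : G, ρ g v = v → g = 1) ∨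
    (Nat.card V = q ^ 2 ∧ ∃ m : ℕ, q = 2 ^ m - 1 ∧
      (Nonempty (G ≃* DihedralGroup (2 ^ m)) ∨
        (Cfsg.IsQuasiDihedral G ∧ Nat.card G = 2 ^ (m + 2)))) := by
  rcases h.cases with h1 | h1 | ⟨hk, h1⟩
  · obtain ⟨t, -, ht⟩ := h.exists_out
    obtain ⟨e⟩ := h.equiv_dihedral h1
    obtain ⟨h3, h4⟩ := mc_count ρ hρ hs h2 h ht (h1 t trivial ht) (zpowers x) (m := k + 2)
      (by rw [Nat.card_zpowers, h.ordx]) fun g =>
        ⟨fun e => h.mul_inv_mem trivial trivial e.1 ht, fun e => by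
          have : g ∉ zpowers x := fun e' => ht (by simpa using mul_mem (inv_mem e) e')
          exact ⟨this, h1 g trivial this⟩⟩
    exact Or.inr ⟨h3, _, h4, Or.inl ⟨topEquiv.symm.trans e⟩⟩
  · obtain ⟨e⟩ := h.equiv_quaternion h1
    refine Or.inl ⟨⟨_, ⟨topEquiv.symm.trans e⟩⟩, fun v hv g hg => ?_⟩
    by_contra h3
    by_cases h5 : g ∈ zpowers x
    · exact hv (mc_fpf ρ hρ hs h2 h h5 h3 hg)
    · exact hv (mc_fpf ρ hρ hs h2 h h.u_mem_x h.u_ne_one (by rw [← h1 g trivial h5, mul_app, hg, hg]))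
  · have hcx : ∀ a ∈ zpowers x, ∀ b ∈ zpowers x, Commute a b := fun a ha b hb =>
      H9.commute_of_mem_zpowers ha hb
    have hx : ∀ y, y ∉ zpowers x → ∀ b ∈ zpowers (x ^ 2),
        (b * x * y) * (b * x * y) = x ^ 2 ^ (k + 1) * (y * y) := fun y hy b hb => by
      rw [h.mul_sq trivial (mul_mem (h.sq_le hb) (mem_zpowers x)),
        show y * (b * x) * y⁻¹ = (y * b * y⁻¹) * (y * x * y⁻¹) by group,
        h.inverts_sq trivial hy hb, h1 y trivial hy, (hcx b (h.sq_le hb) x (mem_zpowers x)).eq]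
      group
    obtain ⟨t, ht, ht2⟩ : ∃ t, t ∉ zpowers x ∧ t * t = 1 := by
      obtain ⟨y, -, hy⟩ := h.exists_out
      rcases h.sq_cases trivial hy with e | e
      · exact ⟨y, hy, e⟩
      · refine ⟨1 * x * y, fun e' => hy ?_, by rw [hx y hy 1 (one_mem _), e, h.u_mul_u]⟩
        simpa using mul_mem (inv_mem (mem_zpowers x)) e'
    obtain ⟨h3, h4⟩ := mc_count ρ hρ hs h2 h ht ht2 (zpowers (x ^ 2)) (m := k + 1)
      (by rw [Nat.card_zpowers, h.orderOf_sq]) fun g => ⟨fun e => by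
        refine (h.mem_sq_or (h.mul_inv_mem trivial trivial e.1 ht)).resolve_right fun e' => ?_
        have := hx t ht _ e'
        rw [ht2, mul_one, show g * t⁻¹ * x⁻¹ * x * t = g by group, e.2] at this
        exact h.u_ne_one this.symm, fun e => by
        refine ⟨fun e' => ht (by simpa using mul_mem (inv_mem (h.sq_le e)) e'), ?_⟩
        have := h.mul_sq (mem_top t) (h.sq_le e)
        rwa [h.inverts_sq trivial ht e, ht2, mul_inv_cancel, mul_one, inv_mul_cancel_right] at this⟩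
    exact Or.inr ⟨h3, _, h4, Or.inr ⟨H9.isQuasiDihedral_of_equiv topEquiv (h.isQuasiDihedral hk h1),
      by rw [← card_top, h.card_eq]⟩⟩

omit [Finite V] in
theorem exists_fix {p : ℕ} [Fact p.Prime] (hρ : Function.Injective ρ) (hs : Half ρ)
    (hp : (p : ZMod q) ≠ 0) {u z : G} (hu : u ^ p = 1) (hz : z ∈ center G) (ho : orderOf z = p) :
    ∃ (i : ℕ) (v : V), v ≠ 0 ∧ ρ (z ^ i * u) v = v := by
  have hpp : p.Prime := Fact.out
  have hzc : ∀ a, Commute a z := fun a => mem_center_iff.1 hz a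
  have hzp : z ^ p = 1 := ho ▸ pow_orderOf_eq_one z
  by_contra hc
  push Not at hc
  obtain ⟨v, hv⟩ := exists_ne (0 : V)
  have h1 : ∀ i, Nm ρ p (z ^ i * u) v = 0 := fun i => by
    by_contra h1
    refine hc i _ h1 (norm_mem_fix ρ ?_ v)
    rw [((hzc u).symm.pow_left i).mul_pow, hu, mul_one, ← pow_mul, mul_comm, pow_mul, hzp, one_pow]
  have h2 : ∑ i ∈ Finset.range p, Nm ρ p (z ^ i * u) v =
      ∑ j ∈ Finset.range p, Nm ρ p (z ^ j) (ρ (u ^ j) v) := by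
    simp only [Nm]
    rw [Finset.sum_comm]
    refine Finset.sum_congr rfl fun j _ => Finset.sum_congr rfl fun i _ => ?_
    rw [((hzc u).symm.pow_left i).mul_pow, mul_app, ← pow_mul, ← pow_mul, mul_comm]
  rw [Finset.sum_eq_zero fun i _ => h1 i, Finset.sum_eq_single 0] at h2
  · rw [pow_zero, pow_zero, Nm_fix ρ p (by simp), map_one] at h2
    exact hv ((smul_eq_zero.1 h2.symm).resolve_left hp)
  · intro j hj hj0
    have h3 : (z ^ j) ^ p = 1 := by rw [← pow_mul, mul_comm, pow_mul, hzp, one_pow]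
    refine cent_fpf ρ hρ hs hp (pow_mem hz j) (fun e => ?_) h3 (norm_mem_fix ρ h3 _)
    have := Nat.le_of_dvd (Nat.pos_of_ne_zero hj0) (ho ▸ orderOf_dvd_of_pow_eq_one e)
    exact absurd (Finset.mem_range.1 hj) (by omega)
  · intro h; exact absurd (Finset.mem_range.2 hpp.pos) h

omit [Finite G] in
theorem coords (hρ : Function.Injective ρ) {v w : V}
    (hind : ∀ a b : ZMod q, a • v + b • w = 0 → a = 0 ∧ b = 0)
    (hsp : ∀ y : V, ∃ a b : ZMod q, a • v + b • w = y)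
    (hD : ∀ (g : G), ∃ a b : ZMod q, (a * b = 1 ∨ a * b = -1) ∧
      ((ρ g v = a • v ∧ ρ g w = b • w) ∨ (ρ g v = a • w ∧ ρ g w = b • v)))
    (hE : ∀ a b : ZMod q, (a * b = 1 ∨ a * b = -1) →
      (∃ g, ρ g v = a • v ∧ ρ g w = b • w) ∧ ∃ g, ρ g v = a • w ∧ ρ g w = b • v) :
    ∃ e : V ≃ₗ[ZMod q] (Fin 2 → ZMod q), ∀ f : (Fin 2 → ZMod q) ≃ₗ[ZMod q] (Fin 2 → ZMod q),
        (∃ g : G, f = e.symm.trans ((ρ g).trans e)) ↔
        ∃ a s : ZMod q, a ≠ 0 ∧ (s = 1 ∨ s = -1) ∧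
          ((∀ v, f v = ![a * v 0, s * a⁻¹ * v 1]) ∨ (∀ v, f v = ![s * a⁻¹ * v 1, a * v 0])) := by
  let ψ : (Fin 2 → ZMod q) →ₗ[ZMod q] V :=
    (LinearMap.proj 0).smulRight v + (LinearMap.proj 1).smulRight w
  have hψ : ∀ y, ψ y = y 0 • v + y 1 • w := fun y => rfl
  have hb : Function.Bijective ψ := by
    refine ⟨(injective_iff_map_eq_zero ψ).2 fun y hy => ?_, fun y => ?_⟩
    · obtain ⟨h1, h2⟩ := hind _ _ hy
      ext i; fin_cases i; exacts [h1, h2]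
    · obtain ⟨a, b, h⟩ := hsp y
      exact ⟨![a, b], h⟩
  let e := LinearEquiv.ofBijective ψ hb
  have key : ∀ (f : (Fin 2 → ZMod q) ≃ₗ[ZMod q] (Fin 2 → ZMod q)) (g : G),
      f = e.symm.symm.trans ((ρ g).trans e.symm) ↔ ∀ y, ψ (f y) = ρ g (ψ y) := fun f g => by
    rw [LinearEquiv.ext_iff]
    refine forall_congr' fun y => ?_
    change f y = e.symm (ρ g (ψ y)) ↔ _
    rw [LinearEquiv.eq_symm_apply]; rfl
  refine ⟨e.symm, fun f => ?_⟩
  simp only [key]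
  constructor
  · rintro ⟨g, hg⟩
    obtain ⟨a, b, hab, h⟩ := hD g
    have ha : a ≠ 0 := by rintro rfl; simp at hab
    have hb' : a * b * a⁻¹ = b := by field_simp
    refine ⟨a, a * b, ha, hab, h.imp (fun h y => hb.1 ?_) fun h y => hb.1 ?_⟩
    · rw [hg, hψ, hψ, map_add, map_smul, map_smul, h.1, h.2, hb', smul_smul, smul_smul]
      simp [mul_comm]
    · rw [hg, hψ, hψ, map_add, map_smul, map_smul, h.1, h.2, hb', smul_smul, smul_smul, add_comm]
      simp [mul_comm]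
  · rintro ⟨a, s, ha, hs, h⟩
    obtain ⟨⟨g, h1⟩, g', h2⟩ := hE a (s * a⁻¹) (by
      rw [show a * (s * a⁻¹) = s by field_simp]; exact hs)
    rcases h with h | h
    · refine ⟨g, fun y => ?_⟩
      rw [h, hψ, hψ, map_add, map_smul, map_smul, h1.1, h1.2, smul_smul, smul_smul]
      simp [mul_comm]
    · refine ⟨g', fun y => ?_⟩
      rw [h, hψ, hψ, map_add, map_smul, map_smul, h2.1, h2.2, smul_smul, smul_smul, add_comm]
      simp [mul_comm]

theorem imp_two (hG : IsPGroup 2 G) (hρ : Function.Injective ρ) (hs : Half ρ)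
    (hp : ((2 : ℕ) : ZMod q) ≠ 0) {u c g0 : G} (hu : u ^ 2 = 1) (hc : c ∈ center G) (h1 : c ≠ 1)
    (hc2 : c ^ 2 = 1) (hcc : ∀ g, g * u * g⁻¹ * u⁻¹ ∈ center G) (hg0 : g0 * u * g0⁻¹ = c * u)
    {v : V} (hv0 : v ≠ 0) (hv : ρ u v = v) :
    (Nat.card V = q ^ 2 ∧ (∃ m : ℕ, q = 2 ^ m + 1) ∧
      ∃ e : V ≃ₗ[ZMod q] (Fin 2 → ZMod q), ∀ f : (Fin 2 → ZMod q) ≃ₗ[ZMod q] (Fin 2 → ZMod q),
        (∃ g : G, f = e.symm.trans ((ρ g).trans e)) ↔
        ∃ a s : ZMod q, a ≠ 0 ∧ (s = 1 ∨ s = -1) ∧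
          ((∀ v, f v = ![a * v 0, s * a⁻¹ * v 1]) ∨ (∀ v, f v = ![s * a⁻¹ * v 1, a * v 0]))) ∨
    (Nat.card V = 81 ∧ q = 3) := by
  have hq : q.Prime := Fact.out
  have hneg := neg_of_cent ρ hρ hs hp hc h1 hc2
  have hcomp := isCompl_fix ρ hp hu hneg
  have hsq := card_sq ρ hp hu hneg hg0
  have hconj : ∀ g, g * u * g⁻¹ = u ∨ (g * u * g⁻¹ = c * u) := fun g => by
    by_cases h : g * u * g⁻¹ * u⁻¹ = 1
    · exact Or.inl (mul_inv_eq_one.1 h)
    · have h2 : (g * u * g⁻¹ * u⁻¹) ^ 2 = 1 := by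
        have h3 : (g * u * g⁻¹ * u⁻¹ * u) ^ 2 = 1 := by
          rw [inv_mul_cancel_right, conj_pow, hu]; group
        rwa [(show Commute u _ from mem_center_iff.1 (hcc g) u).symm.mul_pow, hu, mul_one] at h3
      have := neg_of_cent ρ hρ hs hp (hcc g) h h2
      have h4 : g * u * g⁻¹ * u⁻¹ = c := hρ (LinearEquiv.ext fun y => by rw [this, hneg])
      exact Or.inr (by rw [← h4]; group)
  have hcx : ∀ g, g * (c * u) * g⁻¹ = c * (g * u * g⁻¹) := fun g => by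
    rw [← mul_assoc g, mem_center_iff.1 hc g]; group
  have hmap : ∀ (g t : G) (y : V), ρ t y = y → ρ (g * t * g⁻¹) (ρ g y) = ρ g y := fun g t y h => by
    rw [← mul_app, inv_mul_cancel_right, mul_app, h]
  have hsw : ∀ {y z : V}, ρ u y = y → ρ (c * u) z = z → y ≠ 0 → z ≠ 0 →
      ∃ g, ρ g y = z ∧ ρ g z = y := fun a b d e =>
    let ⟨_, g, h2, h3, _⟩ := swap ρ hρ hs hp hu hc h1 hc2 hcc a b d e
    ⟨g, h2, h3⟩
  set w := ρ g0 v with hwd
  have hw : ρ (c * u) w = w := hg0 ▸ hmap g0 u v hv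
  have hw0 : w ≠ 0 := fun e => hv0 ((ρ g0).map_eq_zero_iff.1 e)
  have hdis : ∀ y, ρ u y = y → ρ (c * u) y = y → y = 0 := fun y a b =>
    Submodule.disjoint_def.1 hcomp.disjoint y a b
  let _ : MulAction G V := MulAction.compHom V ρ
  have horb : MulAction.orbit G v = ((fix ρ u : Set V) \ {0}) ∪ ((fix ρ (c * u) : Set V) \ {0}) := by
    ext y
    constructor
    · rintro ⟨g, rfl⟩
      have h0 : ρ g v ≠ 0 := fun e => hv0 ((ρ g).map_eq_zero_iff.1 e)
      have := hmap g u v hv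
      rcases hconj g with h | h <;> rw [h] at this
      exacts [Or.inl ⟨this, h0⟩, Or.inr ⟨this, h0⟩]
    · rintro (⟨h2, h3⟩ | ⟨h2, h3⟩)
      · obtain ⟨g, -, h4⟩ := hsw h2 hw h3 hw0
        exact ⟨g * g0, by change ρ _ v = y; rw [mul_app, ← hwd, h4]⟩
      · obtain ⟨g, h4, -⟩ := hsw hv h2 hv0 h3
        exact ⟨g, h4⟩
  obtain ⟨a, ha⟩ := hG.index (MulAction.stabilizer G v)
  set r := Nat.card (fix ρ u) with hrd
  have hr2 : Nat.card (fix ρ (c * u)) = r := by rw [← hg0, card_fix_conj]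
  rw [MulAction.index_stabilizer, horb, Set.ncard_union_eq (Set.disjoint_left.2 fun y h2 h3 =>
      h2.2 (hdis y h2.1 h3.1)), Set.ncard_diff_singleton_of_mem (fix ρ u).zero_mem,
    Set.ncard_diff_singleton_of_mem (fix ρ (c * u)).zero_mem, ← Nat.card_coe_set_eq,
    ← Nat.card_coe_set_eq] at ha
  change r - 1 + (Nat.card (fix ρ (c * u)) - 1) = _ at ha
  rw [hr2] at ha
  have h4 : r = q ^ Module.finrank (ZMod q) (fix ρ u) := by
    rw [hrd, Module.natCard_eq_pow_finrank (K := ZMod q), Nat.card_zmod]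
  obtain ⟨m, hm⟩ : ∃ m, r = 2 ^ m + 1 := by
    rcases a with _ | m
    · omega
    · have := Nat.two_pow_pos m
      exact ⟨m, by rw [pow_succ] at ha; omega⟩
  rcases pow_eq_two_pow (odd_q hp) hq.one_lt.ne' (h4 ▸ hm) with h5 | ⟨h5, h6⟩
  swap
  · exact Or.inr ⟨by rw [← hsq, h4, h6, h5]; rfl, h5⟩
  have hr : r = q := by rw [h4, h5, pow_one]
  have hV0 : ∀ y, ρ u y = y → ∃ a : ZMod q, a • v = y := fun y hy => by
    obtain ⟨a, h⟩ := (finrank_eq_one_iff_of_nonzero' (⟨v, hv⟩ : fix ρ u)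
      fun e => hv0 (congrArg Subtype.val e)).1 h5 ⟨y, hy⟩
    exact ⟨a, congrArg Subtype.val h⟩
  obtain ⟨σ, hσ1, hσ2⟩ := hsw hv hw hv0 hw0
  have hV1 : ∀ y, ρ (c * u) y = y → ∃ a : ZMod q, a • w = y := fun y hy => by
    by_cases h0 : y = 0
    · exact ⟨0, by rw [h0, zero_smul]⟩
    have h7 := hmap g0 _ y hy
    rw [hcx, hg0, ← mul_assoc, ← sq, hc2, one_mul] at h7
    obtain ⟨a, h8⟩ := hV0 _ h7
    have h9 := hmap g0 _ w hw
    rw [hcx, hg0, ← mul_assoc, ← sq, hc2, one_mul] at h9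
    obtain ⟨b, h10⟩ := hV0 _ h9
    have hb : b ≠ 0 := by
      rintro rfl
      rw [zero_smul] at h10
      exact hw0 ((ρ g0).map_eq_zero_iff.1 h10.symm)
    refine ⟨a * b⁻¹, (ρ g0).injective ?_⟩
    rw [map_smul, ← h10, ← h8, smul_smul, inv_mul_cancel_right₀ hb]
  have hsp : ∀ y : V, ∃ a b : ZMod q, a • v + b • w = y := fun y => by
    obtain ⟨y1, h7, y2, h8, rfl⟩ := Submodule.mem_sup.1 (hcomp.sup_eq_top ▸ Submodule.mem_top (x := y))
    obtain ⟨a, rfl⟩ := hV0 y1 h7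
    obtain ⟨b, rfl⟩ := hV1 y2 h8
    exact ⟨a, b, rfl⟩
  have hext : ∀ g h : G, ρ g v = ρ h v → ρ g w = ρ h w → g = h := fun g h h7 h8 =>
    hρ (LinearEquiv.ext fun y => by
      obtain ⟨a, b, rfl⟩ := hsp y
      simp only [map_add, map_smul, h7, h8])
  have huw : ρ u w = -w := by
    have := hw
    rw [mul_app, hneg] at this
    exact (neg_eq_iff_eq_neg.1 this)
  have hdiag : ∀ a : ZMod q, a ≠ 0 → ∃ g, ρ g v = a • v ∧ ρ g w = a⁻¹ • w := fun a ha' => by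
    obtain ⟨τ, h7, h8⟩ := hsw hv (z := a • w) (by rw [map_smul, hw]) hv0 (smul_ne_zero ha' hw0)
    refine ⟨σ * τ, by rw [mul_app, h7, map_smul, hσ2], ?_⟩
    have : ρ τ w = a⁻¹ • v := by rw [← h8, map_smul, smul_smul, inv_mul_cancel₀ ha', one_smul]
    rw [mul_app, this, map_smul, hσ1]
  have hst : ∀ h, ρ h v = v → h = 1 ∨ h = u := fun h hh => by
    have h7 : (St ρ (v + w) : Set G) ⊆ {1, σ} := fun g hg => by
      rcases swap_or ρ hρ hs hp hu hc h1 hc2 hcc hv hw hv0 hw0 hg with h8 | h8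
      · exact Or.inl (hext _ _ (by simpa using h8.1) (by simpa using h8.2))
      · exact Or.inr (hext _ _ (h8.1.trans hσ1.symm) (h8.2.1.trans hσ2.symm))
    have h8 := (Set.ncard_le_ncard h7).trans ((Set.ncard_insert_le _ _).trans (by simp) :
      ({1, σ} : Set G).ncard ≤ 2)
    have h9 := hs v (v + w) hv0 (swap ρ hρ hs hp hu hc h1 hc2 hcc hv hw hv0 hw0).1
    have hu1 : (1 : G) ≠ u := by
      rintro rfl
      exact hw0 (hdis w (by simp) hw)
    have h10 : ({1, u} : Set G) = (St ρ v : Set G) := by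
      refine Set.eq_of_subset_of_ncard_le (by rintro _ (rfl | rfl); exacts [one_mem _, hv]) ?_
      rw [Set.ncard_pair hu1, ← Nat.card_coe_set_eq]
      rw [← Nat.card_coe_set_eq] at h8
      exact h9.trans_le h8
    exact (h10 ▸ hh : h ∈ ({1, u} : Set G))
  have hD0 : ∀ g, g * u * g⁻¹ = u → ∃ a b : ZMod q, (a * b = 1 ∨ a * b = -1) ∧
      ρ g v = a • v ∧ ρ g w = b • w := fun g hg => by
    obtain ⟨a, ha'⟩ := hV0 _ (hg ▸ hmap g u v hv :)
    obtain ⟨b, hb⟩ := hV1 (ρ g w) (by have := hmap g _ w hw; rwa [hcx, hg] at this)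
    have h0 : a ≠ 0 := by
      rintro rfl
      rw [zero_smul] at ha'
      exact hv0 ((ρ g).map_eq_zero_iff.1 ha'.symm)
    obtain ⟨δ, h7, h8⟩ := hdiag a⁻¹ (inv_ne_zero h0)
    have h9 : ρ (δ * g) w = (a * b) • w := by
      rw [mul_app, ← hb, map_smul, h8, inv_inv, smul_smul, mul_comm]
    refine ⟨a, b, ?_, ha'.symm, hb.symm⟩
    rcases hst (δ * g) (by rw [mul_app, ← ha', map_smul, h7, smul_smul, mul_inv_cancel₀ h0, one_smul])
      with h | h <;> rw [h] at h9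
    · exact Or.inl (smul_left_injective _ hw0 (by simpa using h9.symm))
    · exact Or.inr (smul_left_injective _ hw0 (by simpa [huw] using h9.symm))
  refine Or.inl ⟨by rw [← hsq, hr], ⟨m, hr ▸ hm⟩, coords ρ hρ (v := v) (w := w) (fun a b h => ?_) hsp
    (fun g => ?_) fun a b hab => ?_⟩
  · have h7 : a • v = 0 := hdis _ (by rw [map_smul, hv]) (by
      rw [eq_neg_of_add_eq_zero_left h, map_neg, map_smul, hw])
    rw [h7, zero_add] at h
    exact ⟨(smul_eq_zero.1 h7).resolve_right hv0, (smul_eq_zero.1 h).resolve_right hw0⟩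
  · rcases hconj g with h | h
    · obtain ⟨a, b, h7, h8⟩ := hD0 g h
      exact ⟨a, b, h7, Or.inl h8⟩
    · have hσ : σ * u * σ⁻¹ = c * u := (hconj σ).resolve_left fun e => hw0 (hdis w
        (by have := hmap σ u v hv; rwa [e, hσ1] at this) hw)
      obtain ⟨a, b, h7, h8, h9⟩ := hD0 (σ * g) (by
        rw [show σ * g * u * (σ * g)⁻¹ = σ * (g * u * g⁻¹) * σ⁻¹ by group, h, hcx, hσ, ← mul_assoc,
          ← sq, hc2, one_mul])
      refine ⟨a, b, h7, Or.inr ⟨(ρ σ).injective ?_, (ρ σ).injective ?_⟩⟩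
      · rw [← mul_app, h8, map_smul, hσ2]
      · rw [← mul_app, h9, map_smul, hσ1]
  · have h0 : a ≠ 0 := by rintro rfl; simp at hab
    have : ∃ g, ρ g v = a • v ∧ ρ g w = b • w := by
      obtain ⟨δ, h7, h8⟩ := hdiag a h0
      rcases hab with h | h
      · exact ⟨δ, h7, by rw [h8, eq_inv_of_mul_eq_one_right h]⟩
      · refine ⟨δ * u, by rw [mul_app, hv, h7], ?_⟩
        rw [mul_app, huw, map_neg, h8, ← neg_smul]
        congr 1
        field_simp
        linear_combination -h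
    obtain ⟨g, h7, h8⟩ := this
    exact ⟨⟨g, h7, h8⟩, σ * g, by rw [mul_app, h7, map_smul, hσ1],
      by rw [mul_app, h8, map_smul, hσ2]⟩

theorem passman (p : ℕ) [Fact p.Prime] (hG : IsPGroup p G) (hρ : Function.Injective ρ)
    (hhalf : ∀ v w : V, v ≠ 0 → w ≠ 0 →
      Nat.card {u : V | ∃ g : G, ρ g v = u} = Nat.card {u : V | ∃ g : G, ρ g w = u}) :
    ((IsCyclic G ∨ ∃ n : ℕ, Nonempty (G ≃* QuaternionGroup n)) ∧
      ∀ v : V, v ≠ 0 → ∀ g : G, ρ g v = v → g = 1) ∨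
    (Nat.card V = q ^ 2 ∧ ∃ m : ℕ, q = 2 ^ m - 1 ∧
      (Nonempty (G ≃* DihedralGroup (2 ^ m)) ∨
        (Cfsg.IsQuasiDihedral G ∧ Nat.card G = 2 ^ (m + 2)))) ∨
    (Nat.card V = q ^ 2 ∧ (∃ m : ℕ, q = 2 ^ m + 1) ∧
      ∃ e : V ≃ₗ[ZMod q] (Fin 2 → ZMod q), ∀ f : (Fin 2 → ZMod q) ≃ₗ[ZMod q] (Fin 2 → ZMod q),
        (∃ g : G, f = e.symm.trans ((ρ g).trans e)) ↔
        ∃ a s : ZMod q, a ≠ 0 ∧ (s = 1 ∨ s = -1) ∧
          ((∀ v, f v = ![a * v 0, s * a⁻¹ * v 1]) ∨ (∀ v, f v = ![s * a⁻¹ * v 1, a * v 0]))) ∨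
    (Nat.card V = 81 ∧ q = 3 ∧ p = 2) := by
  have hpp : p.Prime := Fact.out
  have hq : q.Prime := Fact.out
  let _ : MulAction G V := MulAction.compHom V ρ
  have hs : Half ρ := fun v w hv hw => by
    have h1 := card_mul_index (MulAction.stabilizer G v)
    have h2 := card_mul_index (MulAction.stabilizer G w)
    rw [MulAction.index_stabilizer, ← Nat.card_coe_set_eq] at h1 h2
    have h3 : Nat.card (MulAction.orbit G v) = Nat.card (MulAction.orbit G w) := hhalf v w hv hw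
    rw [h3, ← h2] at h1
    have : Nonempty (MulAction.orbit G w) := ⟨⟨w, MulAction.mem_orbit_self w⟩⟩
    exact Nat.eq_of_mul_eq_mul_right Nat.card_pos h1
  by_cases hp : (p : ZMod q) = 0
  · rw [ZMod.natCast_eq_zero_iff, Nat.prime_dvd_prime_iff_eq hq hpp] at hp
    subst hp
    have hd : q ∣ Nat.card V := by
      rw [Module.natCard_eq_pow_finrank (K := ZMod q), Nat.card_zmod]
      exact dvd_pow_self q Module.finrank_pos.ne'
    obtain ⟨v, hv, hv0⟩ := hG.exists_fixed_point_of_prime_dvd_card_of_fixed_point V hd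
      (a := 0) fun g => map_zero (ρ g)
    have h1 : ∀ g : G, g = 1 := fun g => hρ (LinearEquiv.ext fun w => by
      by_cases hw : w = 0
      · simp [hw]
      have h2 : St ρ v = ⊤ := eq_top_iff.2 fun g _ => hv g
      have h3 := hs w v hw hv0.symm
      rw [h2, card_top] at h3
      have : g ∈ St ρ w := eq_top_of_card_eq _ h3 ▸ mem_top g
      simpa using (mem_St ρ).1 this)
    have : Subsingleton G := ⟨fun a b => (h1 a).trans (h1 b).symm⟩
    exact Or.inl ⟨Or.inl inferInstance, fun _ _ g _ => h1 g⟩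
  rcases H9.cyclic_or_mc_or_normal (P := (⊤ : Subgroup G)) (hG.to_subgroup ⊤) with
    h | ⟨rfl, k, x, h⟩ | ⟨W, h1, h2⟩
  · have hc : IsCyclic G := isCyclic_of_surjective topEquiv topEquiv.surjective
    refine Or.inl ⟨Or.inl hc, fun v hv g hg => ?_⟩
    by_contra h1
    obtain ⟨z, hz, hz1, hz2⟩ := exists_pow hG h1
    exact hv (cent_fpf ρ hρ hs hp
      (mem_center_iff.2 fun a => (IsCyclic.commGroup (α := G)).mul_comm a z) hz1 hz2
      ((zpowers_le.2 ((mem_St ρ).2 hg) : zpowers g ≤ St ρ v) hz))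
  · rcases mc_case ρ hρ hs hp h with h | h
    exacts [Or.inl ⟨Or.inr h.1, h.2⟩, Or.inr (Or.inl h)]
  have := h1.normal
  obtain ⟨u, z, hz, ho, hu, huz, hc⟩ := exists_uz hG h2
  obtain ⟨i, v, hv0, hv⟩ := exists_fix ρ hρ hs hp hu hz ho
  have hzc : ∀ a, Commute a (z ^ i) := fun a => mem_center_iff.1 (pow_mem hz i) a
  have hu' : (z ^ i * u) ^ p = 1 := by
    rw [(hzc u).symm.mul_pow, hu, mul_one, ← pow_mul, mul_comm, pow_mul, ← ho, pow_orderOf_eq_one,
      one_pow]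
  have hc' : ∀ g, g * (z ^ i * u) * g⁻¹ * (z ^ i * u)⁻¹ ∈ center G := fun g => by
    have e : g * (z ^ i * u) * g⁻¹ * (z ^ i * u)⁻¹ = z ^ i * (g * u * g⁻¹ * u⁻¹) * (z ^ i)⁻¹ := by
      rw [← mul_assoc g, (hzc g).eq]; group
    rw [e]
    exact mul_mem (mul_mem (pow_mem hz i) (zpowers_le.2 hz (hc g))) (inv_mem (pow_mem hz i))
  have h3 : z ^ i * u ≠ 1 := fun e =>
    huz (eq_inv_of_mul_eq_one_right e ▸ inv_mem (npow_mem_zpowers z i))
  set t := z ^ i * u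
  obtain ⟨g, hg⟩ : ∃ g, g * t * g⁻¹ * t⁻¹ ≠ 1 := by
    by_contra hn
    push Not at hn
    exact hv0 (cent_fpf ρ hρ hs hp (mem_center_iff.2 fun g => by
      have := hn g
      rwa [mul_inv_eq_one, mul_inv_eq_iff_eq_mul] at this) h3 hu' hv)
  have e1 : g * t * g⁻¹ = g * t * g⁻¹ * t⁻¹ * t := by group
  set c := g * t * g⁻¹ * t⁻¹
  have hcp : c ^ p = 1 := by
    have h4 : (c * t) ^ p = 1 := by rw [← e1, conj_pow, hu']; group
    rwa [(show Commute t c from mem_center_iff.1 (hc' g) t).symm.mul_pow, hu', mul_one] at h4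
  obtain ⟨-, -, -, -, h5⟩ := swap ρ hρ hs hp hu' (hc' g) hg hcp hc' hv (w := ρ g v)
    (by rw [← e1, ← mul_app, inv_mul_cancel_right, mul_app, hv]) hv0
    fun e => hv0 ((ρ g).map_eq_zero_iff.1 e)
  obtain rfl : p = 2 := (Nat.prime_dvd_prime_iff_eq hpp Nat.prime_two).1
    (orderOf_eq_prime hcp hg ▸ orderOf_dvd_of_pow_eq_one h5)
  rcases imp_two ρ hG hρ hs hp hu' (hc' g) hg h5 hc' e1 hv0 hv with h | h
  exacts [Or.inr (Or.inr (Or.inl h)), Or.inr (Or.inr (Or.inr ⟨h.1, h.2, rfl⟩))]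

end H19.Pass
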