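import Cfsg.Agent.H19.Gr1
import Cfsg.Agent.H11.Flag
import Cfsg.Agent.H11.ED2

/-! The Möbius function `R` of the lattice of invariant subspaces: its value at semisimple elements (`R_ss`), and as an alternating sum of
numbers of invariant flags (`D_bot`). -/

set_option autoImplicit false
set_option linter.unusedSectionVars false

namespace H19.Gr
open Module Polynomial Finset H11 Equiv UniqueFactorizationMonoid
open Submodule hiding map_smul
open LinearMap (ker range)
open scoped Classical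

variable {F V V' : Type*} [Field F] [AddCommGroup V] [Module F V] [Finite V]
  [AddCommGroup V'] [Module F V'] [Finite V'] {g : End F V} {g' : End F V'} {A B H K : Submodule F V}

/-- the Möbius function `μ(A, ⊤)` -/
noncomputable def R (g : End F V) (A : Submodule F V) : ℂ :=
  (if A = ⊤ then 1 else 0) - ∑ B : Submodule F V, if _h : A < B ∧ Inv g B then R g B else 0
termination_by finrank F V - finrank F A
decreasing_by have := finrank_lt_finrank_of_lt _h.1; have := B.finrank_le; omega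

theorem sum_up (h : Inv g A) (ρ : Submodule F V → ℂ) (p : Submodule F V → Prop) (hp : p A) :
    ∑ B with A ≤ B ∧ Inv g B ∧ p B, ρ B = ρ A + ∑ B with A < B ∧ Inv g B ∧ p B, ρ B := by
  rw [← add_sum_erase _ _ (a := A) (by simpa using ⟨h, hp⟩)]
  congr 2
  ext; simp [lt_iff_le_and_ne, eq_comm]; tauto

theorem R_eq : ∑ B with A < B ∧ Inv g B, R g B = (if A = ⊤ then 1 else 0) - R g A := by
  rw [R.eq_1 g A]; simp [sum_filter]

theorem sum_R (h : Inv g A) : ∑ B with A ≤ B ∧ Inv g B, R g B = if A = ⊤ then 1 else 0 := by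
  simpa [R_eq] using sum_up h (R g) (fun _ => True) trivial

theorem eq_up {ρ ρ' : Submodule F V → ℂ} (p : Submodule F V → Prop)
    (h : ∀ A, Inv g A → p A → ∑ B with A ≤ B ∧ Inv g B ∧ p B, ρ B = ∑ B with A ≤ B ∧ Inv g B ∧ p B, ρ' B) (hA : Inv g A) (hp : p A) :
    ρ A = ρ' A := by
  induction A using WellFoundedGT.induction with | ind A ih =>
  have := h A hA hp
  rw [sum_up hA _ p hp, sum_up hA _ p hp, sum_congr rfl fun B hB => ih B (mem_filter.1 hB).2.1 (mem_filter.1 hB).2.2.1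
    (mem_filter.1 hB).2.2.2] at this
  exact add_right_cancel this

theorem R_comap (e : V →ₗ[F] V') (he : Function.Surjective e) (h : ∀ x, e (g x) = g' (e x)) {B : Submodule F V'} (hB : Inv g' B) :
    R g (B.comap e) = R g' B := by
  refine eq_up (ρ := fun B => R g (B.comap e)) (fun _ => True) (fun B hB _ => ?_) hB trivial
  have i {B} (hB : Inv g' B) : Inv g (B.comap e) := fun x hx => show e _ ∈ B from h x ▸ hB _ hx
  simp only [and_true, sum_R hB]
  rw [← if_congr ((comap_injective_of_surjective he).eq_iff' (comap_top e)) rfl rfl, ← sum_R (i hB)]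
  refine sum_bij (fun B _ => B.comap e) (fun C hC => ?_) (fun _ _ _ _ k => comap_injective_of_surjective he k) (fun C hC => ?_) fun _ _ => rfl
  all_goals simp only [mem_filter, mem_univ, true_and] at hC ⊢
  · exact ⟨comap_mono hC.1, i hC.2⟩
  refine ⟨C.map e, ⟨map_comap_eq_of_surjective he B ▸ map_mono hC.1, ?_⟩, comap_map_eq_self ((LinearMap.ker_le_comap e).trans hC.1)⟩
  rintro _ ⟨x, hx, rfl⟩
  exact ⟨_, hC.2 x hx, h x⟩

theorem weisner (hH : Inv g H) (h : H ≠ ⊤) : ∑ B with Inv g B ∧ B ⊓ H = ⊥, R g B = 0 := by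
  refine eq_up (g := g) (ρ := fun A => ∑ B with Inv g B ∧ B ⊓ H = A, R g B) (ρ' := fun _ => 0) (· ≤ H) (fun A hA l => ?_) (by simp [Inv]) bot_le
  simp only [← filter_filter (Inv g) (· ⊓ H = _)]
  rw [sum_fiberwise_eq_sum_filter, sum_const_zero, ← (sum_R hA).trans (if_neg (ne_top_of_le_ne_top h l)), filter_filter]
  congr 1
  ext B
  simp only [mem_filter, mem_univ, true_and, le_inf_iff, l, and_true, inf_le_right]
  exact ⟨fun k => ⟨k.2.1, k.1⟩, fun k => ⟨k.2, k.1, fun x hx => ⟨k.2 x hx.1, hH x hx.2⟩⟩⟩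

theorem card_inv_compl {f : F[X]} (hf : Irreducible f) {v : V} (hv : cp g (range (ev g v)) = f) (hH : Inv g H) (c : IsCompl (range (ev g v)) H) :
    #{B | B ≠ ⊥ ∧ Inv g B ∧ B ⊓ H = ⊥} = Nat.card (ker (aeval (g.restrict hH) f)) ∧
      ∀ B, B ≠ ⊥ ∧ Inv g B ∧ B ⊓ H = ⊥ → IsCompl B H := by
  have z {p} : ev g v p = 0 ↔ f ∣ p := hv ▸ ev_eq_zero
  have m {W} (hW : Inv g W) (p) {x} (hx : x ∈ W) : aeval g p x ∈ W := aeval_apply_smul_mem_of_le_comap hx p g hW
  have k (B) (hB : B ≠ ⊥ ∧ Inv g B ∧ B ⊓ H = ⊥) : IsCompl B H := by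
    refine ⟨disjoint_iff.2 hB.2.2, codisjoint_iff.2 (top_le_iff.1 (c.sup_eq_top.ge.trans (sup_le ?_ le_sup_right)))⟩
    obtain ⟨x, hx, x0⟩ := exists_mem_ne_zero_of_ne_bot hB.1
    obtain ⟨⟨_, p, rfl⟩, y, rfl, -⟩ := existsUnique_add_of_isCompl c x
    obtain ⟨a, b, e⟩ := (hf.coprime_iff_not_dvd.2 fun l : f ∣ p => x0 ((mem_bot F).1 (hB.2.2.le ⟨hx, by simp [z.2 l]⟩)))
    rintro _ ⟨r, rfl⟩
    have : ev g v r = aeval g (r * b) (ev g v p + y) - aeval g (r * b) y := by
      rw [map_add, add_sub_cancel_right, ← ev_apply, ev_ev, ← sub_eq_zero, ← map_sub, z]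
      exact ⟨r * a, by linear_combination -r * e⟩
    exact this ▸ sub_mem (mem_sup_left (m hB.2.1 _ hx)) (mem_sup_right (m hH _ y.2))
  have r (p) (y : H) : (aeval (g.restrict hH) p y : V) = aeval g p y := aeval_intertwine (e := H.subtype) (fun _ => rfl) p y
  have v1 (w : V) : w ∈ range (ev g w) := ⟨1, by simp [ev_apply]⟩
  have d (y : ker (aeval (g.restrict hH) f)) : range (ev g (v + y)) ≠ ⊥ ∧ Inv g (range (ev g (v + y))) ∧ range (ev g (v + y)) ⊓ H = ⊥ := by
    refine ⟨fun e => hf.not_isUnit (isUnit_of_dvd_one (z.1 ((mem_bot F).1 (c.inf_eq_bot.le ⟨⟨1, rfl⟩, ?_⟩)))), inv_cyc _, eq_bot_iff.2 ?_⟩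
    · simpa [ev_apply, eq_neg_of_add_eq_zero_left ((mem_bot F).1 (e.le (v1 _)))] using y.1.2
    rintro _ ⟨⟨p, rfl⟩, hp⟩
    obtain ⟨t, rfl⟩ := z.1 ((mem_bot F).1 (c.inf_eq_bot.le ⟨⟨p, rfl⟩, by simpa [ev_apply] using sub_mem hp (m hH p y.1.2)⟩))
    have := (r f y).symm.trans (congrArg Subtype.val y.2)
    rw [mem_bot, ev_apply, map_add, ← ev_apply, z.2 (dvd_mul_right _ _), mul_comm, map_mul, End.mul_apply, this]; simp
  have := Fintype.ofFinite (ker (aeval (g.restrict hH) f))
  refine ⟨?_, k⟩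
  rw [Nat.card_eq_fintype_card, ← card_univ]
  refine (card_bij (fun (y : ker (aeval (g.restrict hH) f)) _ => range (ev g (v + y))) (fun y _ => mem_filter.2 ⟨mem_univ _, d y⟩) (fun y _ y' _ e => ?_) fun B hB => ?_).symm
  · exact Subtype.ext (Subtype.ext (sub_eq_zero.1 ((mem_bot F).1 ((d y).2.2.le
      ⟨by simpa using sub_mem (v1 _) (e.ge (v1 _)), sub_mem y.1.2 y'.1.2⟩))))
  have hB := (mem_filter.1 hB).2
  obtain ⟨x, y, e, -⟩ := existsUnique_add_of_isCompl (k B hB) v
  have e' : v + (-y : H) = x := by simp [← e]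
  have : aeval g f (-y : H) = aeval g f x := by rw [← e', map_add, ← ev_apply v, z.2 dvd_rfl, zero_add]
  refine ⟨⟨-y, Subtype.ext ((r f _).trans ((mem_bot F).1 (hB.2.2.le ⟨this ▸ m hB.2.1 f x.2, m hH f (-y).2⟩)))⟩, mem_univ _, ?_⟩
  refine eq_of_le_of_inf_le_of_le_sup (z := H) ?_ (hB.2.2.le.trans bot_le) (le_top.trans (k _ (d _)).sup_eq_top.ge)
  rintro _ ⟨p, rfl⟩
  exact m hB.2.1 p (e'.symm.subst (motive := (· ∈ B)) x.2)

/-- the value of the Steinberg character -/
noncomputable def val (q : ℕ) (s : Multiset F[X]) : ℂ :=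
  ∏ f ∈ s.toFinset, (-1 : ℂ) ^ ((f.natDegree - 1) * s.count f) * (q : ℂ) ^ (f.natDegree * s.count f * (s.count f - 1) / 2)

theorem val_cons (q : ℕ) (f : F[X]) (s : Multiset F[X]) :
    val q (f ::ₘ s) = (-1) ^ (f.natDegree - 1) * q ^ (f.natDegree * s.count f) * val q s := by
  rw [val, val, prod_subset (s₁ := s.toFinset) (subset_insert f _) fun x _ h => by simp [Multiset.count_eq_zero.2 (mt Multiset.mem_toFinset.2 h)],
    Multiset.toFinset_cons, ← mul_prod_erase _ _ (mem_insert_self _ _), ← mul_prod_erase _ _ (mem_insert_self _ _),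
    prod_congr rfl fun x hx => by rw [Multiset.count_cons_of_ne (ne_of_mem_erase hx)], Multiset.count_cons_self,
    show f.natDegree * (s.count f + 1) * (s.count f + 1 - 1) = f.natDegree * s.count f * (s.count f - 1) + 2 * (f.natDegree * s.count f) by
      cases s.count f <;> simp; ring, Nat.add_mul_div_left _ _ two_pos]
  ring

theorem R_ss [Finite F] {s : F[X]} (hs : Squarefree s) (n : ℕ) : ∀ (V : Type*) [AddCommGroup V] [Module F V] [Finite V] (g : End F V),
    finrank F V = n → aeval g s = 0 → (-1) ^ n * R g ⊥ = val (Nat.card F) (ED g) := by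
  induction n using Nat.strong_induction_on with | _ n ih =>
  intro V _ _ _ g hn h
  cases subsingleton_or_nontrivial V
  · have := R_eq (g := g) (A := ⊥)
    rw [sum_eq_zero fun B hB => ((mem_filter.1 hB).2.1.ne (Subsingleton.elim _ _)).elim, if_pos (Subsingleton.elim _ _)] at this
    rw [← hn, finrank_zero_of_subsingleton, ← eq_of_sub_eq_zero this.symm, (ss_of_squarefree hs h).ED_eq, ← cp_top,
      Subsingleton.elim ⊤ ⊥, cp_bot]
    simp [val]
  obtain ⟨f, hf⟩ := Multiset.exists_mem_of_ne_zero (ED_ne_zero g)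
  have fi := ss_of_squarefree hs h f hf
  obtain ⟨v, hv, v0⟩ := exists_mem_ne_zero_of_ne_bot (p := ker (aeval g f)) fun e => fi.not_isUnit
    ((isUnit_aeval_iff.1 ((LinearMap.isUnit_iff_ker_eq_bot _).2 e)).isUnit_of_dvd (charpoly_eq_prod_ED g ▸ Multiset.dvd_prod hf))
  have c : cp g (range (ev g v)) = f := eq_of_monic_of_associated cp_monic (pp_ED g f hf).monic
    (((fi.dvd_iff.1 (ev_eq_zero.1 hv)).resolve_left fun u => v0 (by simpa [ev_apply] using (ev_eq_zero (f := 1)).2 u.dvd)).symm)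
  obtain ⟨H, hH, k⟩ := End.isSemisimple_iff.1 (End.isSemisimple_of_squarefree_aeval_eq_zero hs h) (range (ev g v)) (inv_cyc v)
  have h' : aeval (g.restrict hH) s = 0 := LinearMap.ext fun y => Subtype.ext
    ((aeval_intertwine (e := H.subtype) (fun _ => rfl) s y).trans (by simp [h]))
  obtain ⟨a, b⟩ := card_inv_compl fi c hH k
  have π (B) (hB : Inv g B) (k : IsCompl H B) (x) : H.projectionOnto B k (g x) = g.restrict hH (H.projectionOnto B k x) := by
    obtain ⟨x, y, rfl, -⟩ := existsUnique_add_of_isCompl k x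
    simp [projectionOnto_apply_of_mem_left k (hH x.2), (projectionOnto_apply_eq_zero_iff k).2 (hB _ y.2)]; rfl
  have d : finrank F H + f.natDegree = n := by
    rw [← hn, ← finrank_add_eq_of_isCompl k.symm, ← c, cp, dif_pos (inv_cyc v), LinearMap.charpoly_natDegree]
  have d0 := fi.natDegree_pos
  have w := weisner hH (by rintro rfl; rw [finrank_top] at d; omega)
  rw [← add_sum_erase _ _ (a := ⊥) (by simp [Inv]), sum_congr (s₂ := {B | B ≠ ⊥ ∧ Inv g B ∧ B ⊓ H = ⊥}) (by ext; simp)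
    (g := fun _ => R (g.restrict hH) ⊥) fun B hB => by
      have hB := (mem_filter.1 hB).2
      rw [← R_comap _ (projectionOnto_surjective (b B hB).symm) (π B hB.2.1 _) (by simp [Inv]), comap_bot, ker_projectionOnto],
    sum_const, a, natCard_eq_pow_finrank (K := F)] at w
  have e : ED g = f ::ₘ ED (g.restrict hH) := by
    rw [(ss_of_squarefree hs h).ED_eq, (ss_of_squarefree hs h').ED_eq, ← cp_top, cp_mul _ (fun _ _ => mem_top) fun x _ => π _ (inv_cyc v) k.symm x,
      top_inf_eq, ker_projectionOnto, c, Submodule.map_top, range_projectionOnto, cp_top,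
      normalizedFactors_mul fi.ne_zero (LinearMap.charpoly_monic _).ne_zero, normalizedFactors_irreducible fi, (pp_ED g f hf).monic.normalize_eq_self]
    rfl
  have t : finrank F (ker (aeval (g.restrict hH) f)) = f.natDegree * (ED (g.restrict hH)).count f := by
    rw [finrank_ker_ED, Multiset.map_congr rfl (g := fun P => if f = P then f.natDegree else 0) fun P hP => ?_]
    · induction ED (g.restrict hH) using Multiset.induction with
      | empty => simp
      | cons a s ih => by_cases e : f = a <;> simp [e, ih, mul_add, add_comm] <;> simp_all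
    split_ifs with e
    · rw [← e, EuclideanDomain.gcd_self]
    · exact natDegree_gcd_of_coprime (coprime_of_ne (pp_ED g f hf).monic fi (pp_ED _ P hP).monic (ss_of_squarefree hs h' P hP) e)
  rw [e, val_cons, ← ih _ (by omega) H _ rfl h', eq_neg_of_add_eq_zero_left w, t, ← d, ← Nat.sub_add_cancel d0]
  simp; ring

/-- invariant chains from `A` to `⊤` with prescribed steps -/
def Ch (g : End F V) {k : ℕ} (μ : Fin k → ℕ) (A : Submodule F V) (W : Fin k → Submodule F V) : Prop :=
  (∀ i, Inv g (W i) ∧ Fin.cons (α := fun _ => Submodule F V) A W i.castSucc ≤ W i ∧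
    finrank F (W i) = finrank F (Fin.cons (α := fun _ => Submodule F V) A W i.castSucc) + μ i) ∧
      Fin.cons (α := fun _ => Submodule F V) A W (.last k) = ⊤

theorem Ch_cons {k : ℕ} {μ : Fin (k + 1) → ℕ} {W : Fin k → Submodule F V} : Ch g μ A (Fin.cons B W) ↔
    (Inv g B ∧ A ≤ B ∧ finrank F B = finrank F A + μ 0) ∧ Ch g (Fin.tail μ) B W := by
  rw [Ch, Fin.forall_fin_succ, and_assoc]; rfl

theorem Ch.map {k : ℕ} {μ : Fin k → ℕ} {W : Fin k → Submodule F V} (h : Ch 1 μ A W) (u : V ≃ₗ[F] V) :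
    Ch 1 μ (A.map u.toLinearMap) fun i => (W i).map u.toLinearMap := by
  have e (i) : Fin.cons (α := fun _ => Submodule F V) (A.map u.toLinearMap) (fun i => (W i).map u.toLinearMap) i =
      (Fin.cons (α := fun _ => Submodule F V) A W i).map u.toLinearMap := by cases i using Fin.cases <;> rfl
  exact ⟨fun i => ⟨fun _ h => h, e _ ▸ map_mono (h.1 i).2.1, by rw [e, u.finrank_map_eq, u.finrank_map_eq, (h.1 i).2.2]⟩, by simp [e, h.2]⟩

theorem exists_fix {B' : Submodule F V} (h : A ≤ B) (h' : A ≤ B') (d : finrank F B = finrank F B') :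
    ∃ u : V ≃ₗ[F] V, (∀ x ∈ A, u x = x) ∧ B.map u.toLinearMap = B' := by
  obtain ⟨e⟩ := FiniteDimensional.nonempty_linearEquiv_of_finrank_eq d
  obtain ⟨t, ht⟩ := exists_linearEquiv_restrict_eq ((comapSubtypeEquivOfLe h) ≪≫ₗ (comapSubtypeEquivOfLe h').symm ≪≫ₗ e.symm.submoduleMap _)
  obtain ⟨u, hu⟩ := exists_linearEquiv_restrict_eq (t ≪≫ₗ e)
  refine ⟨u, fun x hx => (hu ⟨x, h hx⟩).symm.trans ?_, eq_of_le_of_finrank_eq ?_ ((u.finrank_map_eq B).trans d)⟩
  · rw [LinearEquiv.trans_apply, ← ht ⟨⟨x, h hx⟩, hx⟩]; simp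
  · rintro _ ⟨x, hx, rfl⟩; exact (hu ⟨x, hx⟩).subst (motive := (· ∈ B')) (e _).2

theorem Ch.trans {k : ℕ} {μ : Fin k → ℕ} {W W' : Fin k → Submodule F V} (h : Ch 1 μ A W) (h' : Ch 1 μ A W') :
    ∃ u : V ≃ₗ[F] V, (∀ x ∈ A, u x = x) ∧ ∀ i, (W i).map u.toLinearMap = W' i := by
  induction k generalizing A with
  | zero => exact ⟨.refl _ _, fun _ _ => rfl, finZeroElim⟩
  | succ k ih =>
    rw [← Fin.cons_self_tail W, Ch_cons] at h
    rw [← Fin.cons_self_tail W', Ch_cons] at h'
    obtain ⟨t, a, b⟩ := exists_fix h.1.2.1 h'.1.2.1 (h.1.2.2.trans h'.1.2.2.symm)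
    obtain ⟨u, c, d⟩ := ih (b ▸ h.2.map t) h'.2
    refine ⟨t ≪≫ₗ u, fun x hx => by simp [a x hx, c x (h'.1.2.1 hx)], fun i => (Submodule.map_comp t.toLinearMap u.toLinearMap _).trans ?_⟩
    cases i using Fin.cases with
    | succ i => exact d i
    | zero => exact b.symm ▸ le_antisymm (by rintro _ ⟨x, hx, rfl⟩; exact (c x hx).symm ▸ hx) fun x hx => ⟨x, hx, c x hx⟩

/-- number of invariant chains -/
noncomputable def cnt (g : End F V) {k : ℕ} (μ : Fin k → ℕ) (A : Submodule F V) : ℂ := ∑ W, if Ch g μ A W then 1 else 0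

theorem cnt_succ {k : ℕ} (μ : Fin (k + 1) → ℕ) :
    cnt g μ A = ∑ B with A ≤ B ∧ Inv g B ∧ finrank F B = finrank F A + μ 0, cnt g (Fin.tail μ) B := by
  rw [cnt, ← (Fin.consEquiv fun _ => Submodule F V).sum_comp, Fintype.sum_prod_type, sum_filter]
  refine sum_congr rfl fun B _ => ?_
  simp only [Fin.consEquiv, coe_fn_mk, Ch_cons, ite_and, and_left_comm (a := A ≤ B), cnt]
  split_ifs <;> simp

/-- the alternating sum -/
noncomputable def D (g : End F V) (k a : ℕ) (A : Submodule F V) : ℂ := ∑ κ : Perm (Fin k), if ∀ i, (κ i).1 ≤ 1 + i then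
  ((Perm.sign κ : ℤ) : ℂ) * cnt g (fun i : Fin k => 1 + i - κ i + if (κ i).1 = 0 then a else 0) A else 0

theorem D_zero (a : ℕ) : D g 0 a A = if A = ⊤ then 1 else 0 := by simp [D, cnt, Ch]

theorem D_succ (hA : Inv g A) (k a : ℕ) : D g (k + 1) a A = ∑ B with A ≤ B ∧ Inv g B ∧ finrank F B = finrank F A + (1 + a), D g k 0 B -
    if k = 0 then 0 else D g k (a + 1) A := by
  rw [D, ← Perm.decomposeFin.symm.sum_comp, Fintype.sum_prod_type, Fin.sum_univ_succ, sub_eq_add_neg]
  simp only [Fin.forall_fin_succ, cnt_succ, Fin.tail_def, Perm.decomposeFin_symm_apply_zero, Perm.decomposeFin_symm_apply_succ,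
    Perm.decomposeFin.symm_sign, D]
  congr 1
  · rw [sum_comm]
    refine sum_congr rfl fun e _ => ?_
    simp [mul_sum, ← add_assoc]
  cases k with
  | zero => simp
  | succ k =>
    rw [Fin.sum_univ_succ, sum_eq_zero (s := univ) (f := fun i : Fin k => _) fun i _ => sum_eq_zero fun e _ => if_neg (by simp), add_zero,
      if_neg k.succ_ne_zero, ← sum_neg_distrib]
    refine sum_congr rfl fun e _ => ?_
    have h (i) : (swap 0 (Fin.succ 0) (e i).succ).1 = if (e i).1 = 0 then 0 else (e i).1 + 1 := by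
      cases e i using Fin.cases <;> simp [swap_apply_def, Fin.succ_succ_ne_one]
    simp only [h]
    rw [sum_congr (s₂ := {A}) (by
      ext B; simpa using ⟨fun l => (eq_of_le_of_finrank_eq l.1 l.2.2.symm).symm, by rintro rfl; exact ⟨le_rfl, hA, rfl⟩⟩) fun _ _ => rfl, sum_singleton,
      if_neg (Fin.succ_ne_zero _), neg_ite, neg_zero]
    refine if_congr (by simpa using forall_congr' fun i => by split_ifs <;> [simp [*]; omega]) ?_ rfl
    simp only [neg_mul, one_mul, Units.val_neg, Int.cast_neg]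
    congr 3
    ext i
    split_ifs <;> simp_all <;> omega

theorem D_eq (k : ℕ) : ∀ (a : ℕ) (A : Submodule F V), Inv g A → finrank F A + (k + 1 + a) = finrank F V →
    D g (k + 1) a A = (-1) ^ k * ∑ B with A ≤ B ∧ Inv g B ∧ finrank F A + a < finrank F B, R g B := by
  induction k with
  | zero =>
    intro a A hA h
    have : R g ⊤ = 1 := by rw [R]; simp
    simp only [D_succ hA, D_zero, if_pos, sub_zero, pow_zero, one_mul]
    refine sum_congr (filter_congr fun B _ => and_congr_right' (and_congr_right' (by have := B.finrank_le; omega))) fun B hB => ?_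
    rw [eq_top_of_finrank_eq (S := B) (by have := B.finrank_le; have := (mem_filter.1 hB).2.2.2; omega), this, if_pos rfl]
  | succ k ih =>
    intro a A hA h
    rw [D_succ hA, if_neg k.succ_ne_zero, ih _ A hA (by omega), sum_congr rfl (g := fun B => (-1) ^ (k + 1) * R g B) fun B hB => ?_, ← mul_sum,
      ← sum_filter_add_sum_filter_not {B | A ≤ B ∧ Inv g B ∧ finrank F A + a < finrank F B} (finrank F · = finrank F A + (1 + a)),
      filter_filter, filter_filter, mul_add, pow_succ, mul_neg_one, sub_eq_add_neg, ← neg_mul]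
    · congr 4 <;> ext B <;> simp only [and_assoc] <;> exact and_congr_right' (and_congr_right' (by omega))
    obtain ⟨-, h1, h2, h3⟩ := mem_filter.1 hB
    rw [ih 0 B h2 (by omega), sum_congr (s₂ := {C | B < C ∧ Inv g C}) (filter_congr fun C _ => ⟨fun l => ⟨l.1.lt_of_ne (by
      rintro rfl; omega), l.2.1⟩, fun l => ⟨l.1.le, l.2, finrank_lt_finrank_of_lt l.1⟩⟩) fun _ _ => rfl, R_eq,
      if_neg (by rintro rfl; rw [finrank_top] at h3; omega)]
    ring

theorem D_bot (n : ℕ) (h : finrank F V = n) : D g n 0 ⊥ = (-1) ^ n * R g ⊥ := by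
  have := R_eq (g := g) (A := ⊥)
  cases n with
  | zero =>
    have _ := finrank_zero_iff.1 h
    rw [sum_eq_zero fun B hB => ((mem_filter.1 hB).2.1.ne (Subsingleton.elim _ _)).elim] at this
    rw [D_zero, eq_of_sub_eq_zero this.symm]; simp
  | succ n =>
    have _ := nontrivial_of_finrank_eq_succ h
    rw [D_eq n 0 ⊥ (by simp [Inv]) (by simp [h]), sum_congr (s₂ := {C | ⊥ < C ∧ Inv g C}) (filter_congr fun C _ => by
      simp [bot_lt_iff_ne_bot, pos_iff_ne_zero, and_comm]) fun _ _ => rfl, this, if_neg bot_ne_top]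
    ring

end H19.Gr
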