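import Cfsg.Agent.H19.StV

/-! The Steinberg character of `GL_n(q)` is `±` the Möbius function `R` of the lattice of invariant subspaces (`uc_eq_R`); parabolic
permutation characters count invariant flags (`fpc_eq`). -/

set_option autoImplicit false
set_option linter.unusedSectionVars false

namespace H19.Gr
open Module Finset H11
open scoped Classical

theorem fpc_of {G X : Type*} [Group G] (P : Subgroup G) (φ : G → X) (hφ : ∀ y z, φ y = φ z ↔ y⁻¹ * z ∈ P) (x : G) (S : X → Prop)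
    (hS : ∀ W, S W ↔ ∃ y, φ y = W ∧ φ (x * y) = W) : Cfsg.fixedPointCharacter P x = Nat.card {W // S W} := by
  have k (y z : G) : (y : G ⧸ P) = z ↔ φ y = φ z := QuotientGroup.eq.trans (hφ y z).symm
  refine congrArg _ (Nat.card_congr (.ofBijective (fun c => ⟨φ c.1.out, (hS _).2 ⟨_, rfl, (k _ _).1 (by
    rw [← smul_eq_mul, MulAction.Quotient.mk_smul_out, QuotientGroup.out_eq']; exact c.2)⟩⟩) ⟨fun c d e => ?_, fun W => ?_⟩))
  · simpa [Subtype.ext_iff] using (k _ _).2 (congrArg Subtype.val e)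
  obtain ⟨y, h1, h2⟩ := (hS _).1 W.2
  exact ⟨⟨y, (k _ _).2 (h2.trans h1.symm)⟩, Subtype.ext (((k _ _).1 (QuotientGroup.out_eq' _)).trans h1)⟩

variable {F : Type*} [Field F] [Fintype F] {n : ℕ}

theorem map_eq_iff (y : GL (Fin n) F) (W : Submodule F (Fin n → F)) : W.map (Matrix.toLin' y.1) = W ↔ Inv (Matrix.toLin' y.1) W :=
  ⟨fun l v hv => l.le ⟨v, hv, rfl⟩, fun l => Submodule.eq_of_le_of_finrank_eq (Submodule.map_le_iff_le_comap.2 l)
    ((Matrix.GeneralLinearGroup.toLin y).toLinearEquiv.finrank_map_eq _)⟩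

theorem exists_flag {μ : Fin n → ℕ} (h : ∑ i, μ i = n) : ∃ E : Fin n → Submodule F (Fin n → F), Ch 1 μ ⊥ E ∧
    ∀ y : GL (Fin n) F, (∀ i, Inv (Matrix.toLin' y.1) (E i)) ↔ y ∈ Cfsg.parabolicGL n F μ := by
  obtain ⟨a, -, h1, -, -, -, h2⟩ := exists_lab h
  let E (p : Fin n → Prop) : Submodule F (Fin n → F) :=
    ⟨⟨⟨{v | ∀ j, ¬ p (a j) → v j = 0}, fun h h' j l => by simp [h j l, h' j l]⟩, fun _ _ => rfl⟩, fun _ _ h j l => by simp [h j l]⟩
  have d (p : Fin n → Prop) : finrank F (E p) = ∑ s with p s, μ s := by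
    refine Nat.pow_right_injective (Finite.one_lt_card (α := F)) ?_
    simp only [← natCard_eq_pow_finrank]
    rw [Nat.card_eq_fintype_card (α := F), ← sum_congr rfl fun s _ => h2 s, sum_card_fiberwise_eq_card_filter]
    exact (card_supp fun j => p (a j)).trans (by simp)
  have e (i : Fin (n + 1)) : Fin.cons (α := fun _ => Submodule F _) ⊥ (fun i => E (· ≤ i)) i = E (·.castSucc < i) := by
    cases i using Fin.cases <;> ext <;> simp [E, Fin.castSucc_lt_succ_iff, funext_iff]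
  refine ⟨fun i => E (· ≤ i), ⟨fun i => ⟨fun _ h => h, e _ ▸ fun v hv j l => hv j fun l' => l (Fin.castSucc_lt_castSucc_iff.1 l').le, ?_⟩,
    (e _).trans (by ext; simp [E, Fin.castSucc_lt_last])⟩, fun y => .trans ⟨fun l i j e => ?_, fun l i v hv => bt_mulVec l hv⟩ (mem_par h1 y).symm⟩
  · rw [e]; erw [d (· ≤ i), d (·.castSucc < i.castSucc)]; rw [add_comm, ← add_sum_erase _ _ (a := i) (by simp)]
    congr 2; ext; simp [lt_iff_le_and_ne, and_comm]
  · simpa using l (a j) (Pi.single j 1) (fun t ht => Pi.single_eq_of_ne (by rintro rfl; simp at ht) _) i e.not_ge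

theorem fpc_eq {μ : Fin n → ℕ} (h : ∑ i, μ i = n) (x : GL (Fin n) F) :
    Cfsg.fixedPointCharacter (Cfsg.parabolicGL n F μ) x = cnt (Matrix.toLin' x.1) μ ⊥ := by
  obtain ⟨E, c, s⟩ := exists_flag (F := F) h
  have m (y z : GL (Fin n) F) (W : Submodule F (Fin n → F)) :
      W.map (Matrix.toLin' (y * z).1) = (W.map (Matrix.toLin' z.1)).map (Matrix.toLin' y.1) := by
    rw [Units.val_mul, Matrix.toLin'_mul, Submodule.map_comp]
  rw [fpc_of _ (fun y i => (E i).map (Matrix.toLin' y.1)) (fun y z => ?_) x (Ch (Matrix.toLin' x.1) μ ⊥) fun W => ⟨fun l => ?_, ?_⟩]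
  · simp [cnt, Fintype.card_subtype]
  · rw [← s, funext_iff]
    refine forall_congr' fun i => .trans ⟨fun l => ?_, fun l => ?_⟩ (map_eq_iff _ _)
    · rw [m, ← l, ← m, inv_mul_cancel]; simp
    · rw [← mul_inv_cancel_left y z, m, l]
  · obtain ⟨u, -, hu⟩ := c.trans (W' := W) ⟨fun i => ⟨fun _ h => h, (l.1 i).2⟩, l.2⟩
    have : (fun i => (E i).map (Matrix.toLin' (Matrix.GeneralLinearGroup.toLin.symm (.ofLinearEquiv u) : GL (Fin n) F).1)) = W :=
      funext fun i => by rw [← hu]; congr 1; exact Matrix.toLin'_toMatrix' _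
    exact ⟨_, this, funext fun i => by rw [m, congrFun this i, map_eq_iff]; exact (l.1 i).1⟩
  · rintro ⟨y, rfl, l⟩
    have := c.map (Matrix.GeneralLinearGroup.toLin y).toLinearEquiv
    rw [Submodule.map_bot] at this
    exact ⟨fun i => ⟨(map_eq_iff _ _).1 ((m _ _ _).symm.trans (congrFun l i)), (this.1 i).2⟩, this.2⟩

theorem uc_eq_R (x : GL (Fin n) F) :
    Cfsg.unipotentCharacterGL n F (fun _ => 1) x = (-1) ^ n * R (Matrix.toLin' x.1) ⊥ := by
  rw [← D_bot n (by simp), D, Cfsg.unipotentCharacterGL]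
  exact sum_congr rfl fun κ _ => if_ctx_congr .rfl (fun h => by rw [fpc_eq (sum_comp_eq (by simp) h)]; simp) fun _ => rfl

end H19.Gr
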